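import Cfsg.Agent.GraphInv.Groups
set_option autoImplicit false

/-!
Determinants of similitudes, and a numerical distinction of symplectic and orthogonal projective groups.
-/

namespace CfsgLib.GraphInv

open Matrix

variable {K : Type*} [Field K] {I : Type} [Fintype I] [DecidableEq I] {n m : ℕ}

theorem det_sq_sim {G : Matrix I I K} (hG : G.det ≠ 0) {a : GL I K} {c : K}
    (h : (a : Matrix I I K)ᵀ * G * (a : Matrix I I K) = c • G) :
    (a : Matrix I I K).det ^ 2 = c ^ Fintype.card I := by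
  have := congrArg Matrix.det h
  rw [Matrix.det_mul, Matrix.det_mul, Matrix.det_transpose, Matrix.det_smul] at this
  exact mul_right_cancel₀ hG (by linear_combination this)

/-- The similitude `diag(c, 1)` of the alternating model. -/
def diagC (m : ℕ) (c : K) : Matrix (Fin m ⊕ Fin m) (Fin m ⊕ Fin m) K := Matrix.fromBlocks (c • 1) 0 0 1

theorem diagC_form (c : K) :
    (diagC m c)ᵀ * Matrix.J (Fin m) K * diagC m c = c • Matrix.J (Fin m) K := by
  simp [diagC, Matrix.J, Matrix.fromBlocks_transpose, Matrix.fromBlocks_multiply, Matrix.fromBlocks_smul]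

theorem det_diagC (c : K) : (diagC m c).det = c ^ m := by
  simp [diagC]

theorem det_sim_J {M : Matrix (Fin m ⊕ Fin m) (Fin m ⊕ Fin m) K} {c : K} (hc : c ≠ 0)
    (h : Mᵀ * Matrix.J (Fin m) K * M = c • Matrix.J (Fin m) K) : M.det = c ^ m := by
  have hmem : M * diagC m c⁻¹ ∈ Matrix.symplecticGroup (Fin m) K := by
    rw [SymplecticGroup.mem_iff', Matrix.transpose_mul,
      show (diagC m c⁻¹)ᵀ * Mᵀ * Matrix.J (Fin m) K * (M * diagC m c⁻¹) =
        (diagC m c⁻¹)ᵀ * (Mᵀ * Matrix.J (Fin m) K * M) * diagC m c⁻¹ by simp only [Matrix.mul_assoc],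
      h, Matrix.mul_smul, Matrix.smul_mul, diagC_form, smul_smul, mul_inv_cancel₀ hc, one_smul]
  have := SymplecticGroup.det_eq_one hmem
  rw [Matrix.det_mul, det_diagC, inv_pow] at this
  exact (mul_inv_eq_one₀ (pow_ne_zero _ hc)).1 this

theorem det_sim_of_cong_J {G : Matrix I I K} (hG : Cong G (Matrix.J (Fin m) K)) {a : GL I K} {c : Kˣ}
    (h : (a : Matrix I I K)ᵀ * G * (a : Matrix I I K) = (c : K) • G) : (a : Matrix I I K).det = (c : K) ^ m := by
  obtain ⟨P, P', h1, h2, t, ht, e⟩ := hG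
  rw [← Matrix.det_conj_of_mul_eq_one (M := P') (M' := P) h2 h1]
  refine det_sim_J c.ne_zero (smul_right_injective _ ht ?_)
  change t • _ = t • _
  rw [← Matrix.smul_mul, ← Matrix.mul_smul, ← e, Matrix.transpose_mul, Matrix.transpose_mul,
    show Pᵀ * ((a : Matrix I I K)ᵀ * P'ᵀ) * (Pᵀ * G * P) * (P' * (a : Matrix I I K) * P) =
      Pᵀ * ((a : Matrix I I K)ᵀ * ((P * P')ᵀ * G * (P * P')) * (a : Matrix I I K)) * P by
        rw [Matrix.transpose_mul]; simp only [Matrix.mul_assoc],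
    h1, Matrix.transpose_one, Matrix.one_mul, Matrix.mul_one, h, Matrix.mul_smul, Matrix.smul_mul, e, smul_comm]

theorem exists_sim_of_cong_J {G : Matrix I I K} (hG : Cong G (Matrix.J (Fin m) K)) (c : Kˣ) :
    ∃ a : GL I K, (a : Matrix I I K)ᵀ * G * (a : Matrix I I K) = (c : K) • G ∧
      (a : Matrix I I K).det = (c : K) ^ m := by
  obtain ⟨P, P', h1, h2, t, ht, e⟩ := hG
  have hd : (P * diagC m (c : K) * P').det = (c : K) ^ m := by
    rw [Matrix.det_conj_of_mul_eq_one h1 h2, det_diagC]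
  refine ⟨GeneralLinearGroup.mkOfDetNeZero (P * diagC m (c : K) * P') (by rw [hd]; exact pow_ne_zero _ c.ne_zero), ?_, hd⟩
  change (P * diagC m (c : K) * P')ᵀ * G * (P * diagC m (c : K) * P') = _
  rw [Matrix.transpose_mul, Matrix.transpose_mul,
    show P'ᵀ * ((diagC m (c : K))ᵀ * Pᵀ) * G * (P * diagC m (c : K) * P') =
      P'ᵀ * ((diagC m (c : K))ᵀ * (Pᵀ * G * P) * diagC m (c : K)) * P' by simp only [Matrix.mul_assoc],
    e, Matrix.mul_smul, Matrix.smul_mul, diagC_form, smul_comm, ← e, Matrix.mul_smul, Matrix.smul_mul,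
    show P'ᵀ * (Pᵀ * G * P) * P' = (P * P')ᵀ * G * (P * P') by
      rw [Matrix.transpose_mul]; simp only [Matrix.mul_assoc],
    h1, Matrix.transpose_one, Matrix.one_mul, Matrix.mul_one]

theorem exists_diag_ne {G : Matrix I I K} (h2 : (2 : K) ≠ 0) (hG : G ≠ 0) (hGt : Gᵀ = G) :
    ∃ v, v ⬝ᵥ (G *ᵥ v) ≠ 0 := by
  by_contra hno
  push Not at hno
  have h1 := skew_of_alt hno
  rw [hGt] at h1
  refine hG (Matrix.ext fun i j => ?_)
  have h3 := congrFun (congrFun h1 i) j
  simp only [Matrix.neg_apply] at h3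
  exact (mul_eq_zero.1 (show 2 * G i j = 0 by linear_combination h3)).resolve_left h2

/-- An isometry of determinant `-1`. -/
theorem exists_refl_matrix {G : Matrix I I K} (h2 : (2 : K) ≠ 0) (hG : G ≠ 0) (hGt : Gᵀ = G) :
    ∃ R : Matrix I I K, R.det = -1 ∧ Rᵀ * G * R = G := by
  obtain ⟨v, hv⟩ := exists_diag_ne h2 hG hGt
  set q := v ⬝ᵥ (G *ᵥ v) with hq
  set R : Matrix I I K := 1 + vecMulVec ((-2 / q) • v) (G *ᵥ v) with hR
  refine ⟨R, ?_, eq_smul_of_dot fun x y => ?_⟩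
  · rw [hR, Matrix.vecMulVec_eq Unit, Matrix.det_one_add_replicateCol_mul_replicateRow, dotProduct_smul,
      dotProduct_comm, ← hq, smul_eq_mul]
    field_simp
    ring
  · have hRx : ∀ x, R *ᵥ x = x + ((-2 / q) * ((G *ᵥ v) ⬝ᵥ x)) • v := fun x => by
      rw [hR, Matrix.add_mulVec, Matrix.one_mulVec, Matrix.vecMulVec_mulVec, op_smul_eq_smul, smul_smul, mul_comm]
    rw [← form_of_mulVec, hRx, hRx]
    simp only [Matrix.mulVec_add, Matrix.mulVec_smul, add_dotProduct, dotProduct_add, smul_dotProduct,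
      dotProduct_smul, smul_eq_mul, ← hq]
    rw [dot_transpose G v y, hGt, dotProduct_comm (G *ᵥ v) x, dotProduct_comm (G *ᵥ v) y]
    field_simp
    ring

theorem exists_sim_sym [Fintype K] (h2 : (2 : K) ≠ 0) {G : Matrix (Fin n) (Fin n) K} (hm : 0 < m) (hnm : n = 2 * m)
    (hG : G.det ≠ 0) (hGt : Gᵀ = G) (c : Kˣ) {s : K} (hs : s = 1 ∨ s = -1) :
    ∃ a : GL (Fin n) K, (a : Matrix (Fin n) (Fin n) K)ᵀ * G * (a : Matrix (Fin n) (Fin n) K) = (c : K) • G ∧
      (a : Matrix (Fin n) (Fin n) K).det = s * (c : K) ^ m := by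
  obtain ⟨P, hP⟩ := exists_exact h2 (G := (c : K) • G)
    (by rw [Matrix.det_smul]; exact mul_ne_zero (pow_ne_zero _ c.ne_zero) hG) (by rw [Matrix.transpose_smul, hGt])
    hG hGt ⟨(c : K) ^ m * G.det, by rw [Matrix.det_smul, Fintype.card_fin, show (c : K) ^ n = (c : K) ^ (2 * m) by rw [hnm]]; ring⟩
  have hsq : P.det ^ 2 = (c : K) ^ n := by
    have := congrArg Matrix.det hP
    rw [Matrix.det_mul, Matrix.det_mul, Matrix.det_transpose, Matrix.det_smul, Fintype.card_fin] at this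
    exact mul_right_cancel₀ hG (by linear_combination this)
  have hG0 : G ≠ 0 := fun h0 => by
    haveI : Nonempty (Fin n) := ⟨⟨0, by omega⟩⟩
    exact hG (by rw [h0, Matrix.det_zero])
  obtain ⟨R, hRd, hR⟩ := exists_refl_matrix h2 hG0 hGt
  have hd : P.det = (c : K) ^ m ∨ P.det = -(c : K) ^ m := by
    refine sq_eq_sq_iff_eq_or_eq_neg.1 ?_
    rw [hsq, hnm]; ring
  have hPR : ∃ M : Matrix (Fin n) (Fin n) K, Mᵀ * G * M = (c : K) • G ∧ M.det = s * (c : K) ^ m := by
    by_cases h : P.det = s * (c : K) ^ m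
    · exact ⟨P, hP, h⟩
    · refine ⟨P * R, ?_, ?_⟩
      · rw [Matrix.transpose_mul, show Rᵀ * Pᵀ * G * (P * R) = Rᵀ * (Pᵀ * G * P) * R by simp only [Matrix.mul_assoc],
          hP, Matrix.mul_smul, Matrix.smul_mul, hR]
      · rw [Matrix.det_mul, hRd]
        rcases hs with rfl | rfl <;> rcases hd with h' | h' <;> first
          | (rw [h']; ring1)
          | exact absurd (by rw [h']; ring1) h
  obtain ⟨M, hM, hMd⟩ := hPR
  refine ⟨GeneralLinearGroup.mkOfDetNeZero M ?_, hM, hMd⟩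
  rw [hMd]
  exact mul_ne_zero (by rcases hs with rfl | rfl <;> simp) (pow_ne_zero _ c.ne_zero)

theorem card_projQuot [Fintype K] (G : Matrix I I K) (hG : G ≠ 0) [Nonempty I] :
    ∃ r : ℕ, r ∣ Fintype.card K - 1 ∧
      Nat.card (Cfsg.projQuot (Sim G)) * (Fintype.card K - 1) = Nat.card (Iso G) * r := by
  classical
  have huniq : ∀ (a : GL I K) (c d : Kˣ), (a : Matrix I I K)ᵀ * G * (a : Matrix I I K) = (c : K) • G →
      (a : Matrix I I K)ᵀ * G * (a : Matrix I I K) = (d : K) • G → c = d := fun a c d h1 h2 =>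
    Units.ext (smul_left_injective K hG (h1.symm.trans h2))
  let μ : Sim G →* Kˣ := MonoidHom.mk' (fun a => a.2.choose) fun a b => by
    refine huniq _ _ _ (a * b).2.choose_spec ?_
    have ea := a.2.choose_spec
    have eb := b.2.choose_spec
    generalize a.2.choose = ca at ea ⊢
    generalize b.2.choose = cb at eb ⊢
    rw [Subgroup.coe_mul, Units.val_mul, Matrix.transpose_mul,
      show ∀ A B : Matrix I I K, Bᵀ * Aᵀ * G * (A * B) = Bᵀ * (Aᵀ * G * A) * B from fun A B => by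
        simp only [Matrix.mul_assoc],
      ea, Matrix.mul_smul, Matrix.smul_mul, eb, smul_smul, Units.val_mul]
  have hker : μ.ker = (Iso G).subgroupOf (Sim G) := by
    ext a
    rw [MonoidHom.mem_ker, Subgroup.mem_subgroupOf, mem_Iso]
    refine ⟨fun h => ?_, fun h => huniq _ _ _ a.2.choose_spec (by rw [Units.val_one, one_smul]; exact h)⟩
    have ea := a.2.choose_spec
    rw [show a.2.choose = 1 from h, Units.val_one, one_smul] at ea
    exact ea
  refine ⟨Nat.card μ.range, ?_, ?_⟩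
  · have := Subgroup.card_subgroup_dvd_card μ.range
    rwa [Nat.card_units, Nat.card_eq_fintype_card (α := K)] at this
  have h1 := Subgroup.card_eq_card_quotient_mul_card_subgroup μ.ker
  rw [Nat.card_congr (QuotientGroup.quotientKerEquivRange μ).toEquiv, hker,
    Nat.card_congr (Subgroup.subgroupOfEquivOfLe (iso_le_sim G)).toEquiv] at h1
  have h3 := Subgroup.card_eq_card_quotient_mul_card_subgroup ((Cfsg.Geo.scalars I K).subgroupOf (Sim G))
  have hle : Cfsg.Geo.scalars I K ≤ Sim G := by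
    rintro _ ⟨t, rfl⟩
    exact scalarU_mem_sim t G
  rw [Nat.card_congr (Subgroup.subgroupOfEquivOfLe hle).toEquiv] at h3
  have hsc : Nat.card (Cfsg.Geo.scalars I K) = Fintype.card K - 1 := by
    rw [← Nat.card_eq_fintype_card, ← Nat.card_units K]
    refine (Nat.card_congr (MonoidHom.ofInjective (f := Units.map (Matrix.scalar I : K →+* Matrix I I K).toMonoidHom)
      (Units.map_injective ?_)).toEquiv).symm
    intro x y e
    exact Matrix.scalar_inj.1 e
  rw [hsc] at h3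
  rw [← h3, h1, mul_comm]

theorem card_iso_gramM (h2 : (2 : K) ≠ 0) (Q : QuadraticForm K (I → K)) :
    Nat.card (Iso (gramM ⇑Q)) = Nat.card (Cfsg.isometryGroup K ⇑Q) := by
  have e : Iso (gramM ⇑Q) = Cfsg.isometryGroup K ⇑Q := by
    ext a
    rw [CfsgLib.Forms.mem_isometryGroup, mem_Iso]
    constructor
    · intro ha v
      refine mul_left_cancel₀ h2 ?_
      have e : QuadraticMap.polar (⇑Q) ((a : Matrix I I K) *ᵥ v) ((a : Matrix I I K) *ᵥ v) = QuadraticMap.polar (⇑Q) v v := by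
        rw [polar_eq_gramM, polar_eq_gramM, form_of_mulVec, ha]
      rw [QuadraticMap.polar_self, QuadraticMap.polar_self, nsmul_eq_mul, nsmul_eq_mul] at e
      push_cast at e
      exact e
    · intro ha
      refine eq_smul_of_dot fun x y => ?_
      rw [← form_of_mulVec, ← polar_eq_gramM, ← polar_eq_gramM]
      simp only [QuadraticMap.polar, ← Matrix.mulVec_add, ha]
  rw [e]

theorem coprime_pow_prod {q m : ℕ} (hq : 0 < q) :
    Nat.Coprime q (∏ i ∈ Finset.range m, (q ^ (2 * (i + 1)) - 1)) := by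
  refine Nat.Coprime.prod_right fun i _ => ?_
  obtain ⟨j, hj⟩ : ∃ j, 2 * (i + 1) = j + 1 := ⟨2 * i + 1, by ring⟩
  rw [hj, pow_succ']
  have hpos : 0 < q * q ^ j := Nat.mul_pos hq (pow_pos hq _)
  rw [Nat.coprime_comm]
  obtain ⟨X, hX⟩ : ∃ X, q * q ^ j = X + 1 := ⟨q * q ^ j - 1, (Nat.succ_pred_eq_of_pos hpos).symm⟩
  rw [hX, Nat.add_sub_cancel]
  exact Nat.Coprime.coprime_dvd_right ⟨q ^ j, rfl⟩ (by rw [hX]; simp)

theorem pgsp_not_equiv [Fintype K] (h2 : (2 : K) ≠ 0) (hm : 2 ≤ m) {Q : QuadraticForm K (I → K)} [Nonempty I]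
    (hQ0 : gramM ⇑Q ≠ 0) {c : ℕ} (hc : Nat.Coprime (Fintype.card K) c)
    (hcard : Nat.card (Cfsg.isometryGroup K ⇑Q) = Fintype.card K ^ (m * (m - 1)) * c) :
    ¬ Nonempty (Cfsg.projQuot (Sim (gramM ⇑Q)) ≃* Cfsg.PGSp m K) := by
  rintro ⟨e⟩
  haveI : Nonempty (Fin m ⊕ Fin m) := ⟨Sum.inl ⟨0, by omega⟩⟩
  set q := Fintype.card K with hq
  have hq1 : 1 < q := Fintype.one_lt_card
  obtain ⟨r, hr, h1⟩ := card_projQuot (gramM ⇑Q) hQ0
  obtain ⟨r', hr', h1'⟩ := card_projQuot (Matrix.J (Fin m) K) (fun h0 => det_J_ne_zero (m := m) (K := K) (by rw [h0, Matrix.det_zero]))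
  have h3 : Nat.card (Cfsg.projQuot (Sim (gramM ⇑Q))) = Nat.card (Cfsg.projQuot (Sim (Matrix.J (Fin m) K))) := by
    rw [sim_J]; exact Nat.card_congr e.toEquiv
  obtain ⟨f⟩ := iso_J_equiv (K := K) (m := m)
  rw [h3, h1', Nat.card_congr f.toEquiv, Cfsg.Agent.S0245.result rfl, card_iso_gramM h2, hcard] at h1
  have hdvd : q ^ (m ^ 2) ∣ q ^ (m * (m - 1)) * (c * r) := ⟨(∏ i ∈ Finset.range m, (q ^ (2 * (i + 1)) - 1)) * r', by
    rw [← mul_assoc (q ^ (m * (m - 1))), ← h1]; ring⟩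
  have hexp : m ^ 2 = m * (m - 1) + m := by
    obtain ⟨k, rfl⟩ : ∃ k, m = k + 1 := ⟨m - 1, by omega⟩
    rw [Nat.add_sub_cancel]; ring
  rw [hexp, pow_add] at hdvd
  have hdvd' := Nat.dvd_of_mul_dvd_mul_left (pow_pos (by omega) _) hdvd
  have hqr : Nat.Coprime q r := Nat.Coprime.coprime_dvd_right hr
    ((Nat.coprime_self_sub_right (by omega)).2 (Nat.coprime_one_right q))
  have h5 : q ∣ c * r := (dvd_pow_self q (by omega)).trans hdvd'
  have := (Nat.Coprime.mul_right hc hqr).eq_one_of_dvd h5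
  omega

end CfsgLib.GraphInv
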