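import Cfsg.Agent.GraphInv.Two
import Cfsg.Agent.OrthOrder.Orders
import Cfsg.Agent.S0304
import Cfsg.Agent.S0245
set_option autoImplicit false

/-!
Similitude groups of the standard matrices.
-/

namespace CfsgLib.GraphInv

open Matrix

variable {K : Type*} [Field K] {I : Type} [Fintype I] [DecidableEq I] {m : ℕ}

theorem eq_smul_of_dot {A B : Matrix I I K} (h : ∀ x y : I → K, x ⬝ᵥ (A *ᵥ y) = x ⬝ᵥ (B *ᵥ y)) : A = B :=
  Matrix.ext fun i j => by simpa using h (Pi.single i 1) (Pi.single j 1)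

theorem sim_J : Sim (Matrix.J (Fin m) K) = Cfsg.GSp m K := by
  ext a
  constructor
  · rintro ⟨c, hc⟩
    refine ⟨c, fun u v => ?_⟩
    change (_ ⬝ᵥ _ : K) = c * (u ⬝ᵥ _)
    rw [form_of_mulVec, hc, Matrix.smul_mulVec, dotProduct_smul, smul_eq_mul]
  · rintro ⟨c, hc⟩
    refine ⟨c, eq_smul_of_dot fun x y => ?_⟩
    rw [← form_of_mulVec, Matrix.smul_mulVec, dotProduct_smul, smul_eq_mul]
    exact hc x y

theorem scalar_inter (t : K) (a : GL I K) (ha : (a : Matrix I I K) = t • 1) (G : Matrix I I K) :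
    (a : Matrix I I K)ᵀ * G * (a : Matrix I I K) = (t * t) • G := by
  rw [ha, Matrix.transpose_smul, Matrix.transpose_one, Matrix.smul_mul, Matrix.one_mul, Matrix.smul_mul,
    Matrix.mul_smul, Matrix.mul_one, smul_smul]

/-- The scalar matrix as a unit. -/
def scalarU (t : Kˣ) : GL I K := Units.map (Matrix.scalar I : K →+* Matrix I I K).toMonoidHom t

theorem scalarU_val (t : Kˣ) : (scalarU t : GL I K).1 = (t : K) • (1 : Matrix I I K) := by
  change Matrix.scalar I (t : K) = _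
  rw [Matrix.smul_one_eq_diagonal]
  rfl

theorem scalarU_mem_sim (t : Kˣ) (G : Matrix I I K) : (scalarU t : GL I K) ∈ Sim G :=
  ⟨t * t, by rw [Units.val_mul]; exact scalar_inter _ _ (scalarU_val t) G⟩

theorem exists_sqrt [Finite K] (h2 : (2 : K) = 0) (c : Kˣ) : ∃ b : Kˣ, b * b = c := by
  obtain ⟨b, hb⟩ := CfsgLib.Forms.exists_sq h2 (c : K)
  have hb0 : b ≠ 0 := fun h0 => c.ne_zero (by rw [← hb, h0, mul_zero])
  exact ⟨Units.mk0 b hb0, Units.ext hb⟩

/-- In characteristic two isometries represent the projective similitudes. -/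
theorem iso_equiv_projQuot [Finite K] (h2 : (2 : K) = 0) {G : Matrix I I K} (hG : G ≠ 0) :
    Nonempty (Iso G ≃* Cfsg.projQuot (Sim G)) := by
  let φ : Iso G →* Cfsg.projQuot (Sim G) := (QuotientGroup.mk' _).comp (Subgroup.inclusion (iso_le_sim G))
  refine ⟨MulEquiv.ofBijective φ ⟨(injective_iff_map_eq_one φ).2 fun a ha => ?_, fun y => ?_⟩⟩
  · have h1 := (QuotientGroup.eq_one_iff _).1 (show QuotientGroup.mk (Subgroup.inclusion (iso_le_sim G) a) = 1 from ha)
    obtain ⟨t, ht⟩ := (Cfsg.Geo.mem_scalars_iff _).1 (Subgroup.mem_subgroupOf.1 h1)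
    have h3 := scalar_inter (t : K) a.1 ht G
    rw [mem_Iso.1 a.2] at h3
    have h4 : ((t : K) * t - 1) • G = 0 := by rw [sub_smul, one_smul, ← h3, sub_self]
    have h5 : (t : K) = 1 := sqrt_inj h2 (by
      rw [one_mul]; exact sub_eq_zero.1 ((smul_eq_zero.1 h4).resolve_right hG))
    refine Subtype.ext (Units.ext ?_)
    rw [show (a : GL I K).1 = (t : K) • (1 : Matrix I I K) from ht, h5, one_smul]
    rfl
  · obtain ⟨a, rfl⟩ := QuotientGroup.mk_surjective y
    obtain ⟨c, hc⟩ := a.2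
    obtain ⟨b, hb⟩ := exists_sqrt h2 c
    have hmem : scalarU b⁻¹ * a.1 ∈ Iso G := by
      rw [mem_Iso, Units.val_mul, scalarU_val, Matrix.smul_mul, Matrix.one_mul, Matrix.transpose_smul,
        Matrix.smul_mul, Matrix.smul_mul, Matrix.mul_smul, smul_smul, hc, smul_smul, ← hb,
        ← Units.val_mul, ← Units.val_mul]
      rw [show b⁻¹ * b⁻¹ * (b * b) = 1 by group, Units.val_one, one_smul]
    refine ⟨⟨_, hmem⟩, (QuotientGroup.eq).2 ?_⟩
    rw [Subgroup.mem_subgroupOf, Cfsg.Geo.mem_scalars_iff]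
    refine ⟨b, ?_⟩
    change ((scalarU b⁻¹ * a.1)⁻¹ * a.1 : GL I K).1 = _
    rw [← scalarU_val]
    congr 1
    have hinv : (scalarU b⁻¹ : GL I K)⁻¹ = scalarU b := by
      rw [scalarU, map_inv, inv_inv]; rfl
    rw [_root_.mul_inv_rev, mul_assoc, hinv]
    refine inv_mul_eq_iff_eq_mul.2 (Units.ext ?_)
    rw [Units.val_mul, Units.val_mul, scalarU_val, Matrix.smul_mul, Matrix.one_mul, Matrix.mul_smul, Matrix.mul_one]

/-- Quadratic analogue of `iso_equiv_projQuot`. -/
theorem isometry_equiv_projQuot [Finite K] (h2 : (2 : K) = 0) {Q : QuadraticForm K (I → K)} {u : I → K}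
    (hu : Q u ≠ 0) : Nonempty (Cfsg.isometryGroup K ⇑Q ≃* Cfsg.PGO K ⇑Q) := by
  have hle : Cfsg.isometryGroup K ⇑Q ≤ Cfsg.Geo.quadSimilarityGroup (F := K) ⇑Q := fun a ha =>
    ⟨1, fun v => by rw [Units.val_one, one_mul]; exact CfsgLib.Forms.mem_isometryGroup.1 ha v⟩
  let φ : Cfsg.isometryGroup K ⇑Q →* Cfsg.PGO K ⇑Q := (QuotientGroup.mk' _).comp (Subgroup.inclusion hle)
  refine ⟨MulEquiv.ofBijective φ ⟨(injective_iff_map_eq_one φ).2 fun a ha => ?_, fun y => ?_⟩⟩
  · have h1 := (QuotientGroup.eq_one_iff _).1 (show QuotientGroup.mk (Subgroup.inclusion hle a) = 1 from ha)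
    obtain ⟨t, ht⟩ := (Cfsg.Geo.mem_scalars_iff _).1 (Subgroup.mem_subgroupOf.1 h1)
    have h3 := CfsgLib.Forms.mem_isometryGroup.1 a.2 u
    rw [show (a : GL I K).1 = (t : K) • (1 : Matrix I I K) from ht, Matrix.smul_mulVec, Matrix.one_mulVec,
      QuadraticMap.map_smul, smul_eq_mul] at h3
    have h5 : (t : K) = 1 := sqrt_inj h2 (by rw [one_mul]; exact mul_right_cancel₀ hu (h3.trans (one_mul _).symm))
    refine Subtype.ext (Units.ext ?_)
    rw [show (a : GL I K).1 = (t : K) • (1 : Matrix I I K) from ht, h5, one_smul]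
    rfl
  · obtain ⟨a, rfl⟩ := QuotientGroup.mk_surjective y
    obtain ⟨c, hc⟩ := a.2
    obtain ⟨b, hb⟩ := exists_sqrt h2 c
    have hmem : scalarU b⁻¹ * a.1 ∈ Cfsg.isometryGroup K ⇑Q := CfsgLib.Forms.mem_isometryGroup.2 fun v => by
      rw [Units.val_mul, scalarU_val, Matrix.smul_mul, Matrix.one_mul, Matrix.smul_mulVec, QuadraticMap.map_smul,
        hc, smul_eq_mul, ← hb, Units.val_mul]
      linear_combination (Q v) * ((b⁻¹ : Kˣ).1 * (b : K) + 1) * (b.inv_mul)
    refine ⟨⟨_, hmem⟩, (QuotientGroup.eq).2 ?_⟩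
    rw [Subgroup.mem_subgroupOf, Cfsg.Geo.mem_scalars_iff]
    refine ⟨b, ?_⟩
    change ((scalarU b⁻¹ * a.1)⁻¹ * a.1 : GL I K).1 = _
    rw [← scalarU_val]
    congr 1
    have hinv : (scalarU b⁻¹ : GL I K)⁻¹ = scalarU b := by
      rw [scalarU, map_inv, inv_inv]; rfl
    rw [_root_.mul_inv_rev, mul_assoc, hinv]
    refine inv_mul_eq_iff_eq_mul.2 (Units.ext ?_)
    rw [Units.val_mul, Units.val_mul, scalarU_val, Matrix.smul_mul, Matrix.one_mul, Matrix.mul_smul, Matrix.mul_one]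

/-- The isometries of the alternating model. -/
theorem iso_J_equiv : Nonempty (Iso (Matrix.J (Fin m) K) ≃* Matrix.symplecticGroup (Fin m) K) :=
  ⟨{ toFun := fun a => ⟨a.1.1, SymplecticGroup.mem_iff'.2 a.2⟩
     invFun := fun A => ⟨GeneralLinearGroup.mkOfDetNeZero A.1
        (by rw [SymplecticGroup.det_eq_one A.2]; exact one_ne_zero), SymplecticGroup.mem_iff'.1 A.2⟩
     left_inv := fun a => Subtype.ext (Units.ext rfl)
     right_inv := fun A => Subtype.ext rfl
     map_mul' := fun a b => Subtype.ext rfl }⟩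

theorem det_blockOne {A : Matrix (Fin m ⊕ Fin m) (Fin m ⊕ Fin m) K} (hA : A ∈ Matrix.symplecticGroup (Fin m) K) :
    (Matrix.fromBlocks (1 : Matrix Unit Unit K) 0 0 A).det ≠ 0 := by
  rw [Matrix.det_fromBlocks_zero₂₁, Matrix.det_one, one_mul, SymplecticGroup.det_eq_one hA]
  exact one_ne_zero

/-- The isometries of the model in odd dimension. -/
theorem iso_oddModel_equiv [Finite K] (h2 : (2 : K) = 0) :
    Nonempty (Iso (oddModel m K) ≃* Matrix.symplecticGroup (Fin m) K) := by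
  have hval : ∀ x : Unit ⊕ (Fin m ⊕ Fin m) → K, x ⬝ᵥ (oddModel m K *ᵥ x) = x (Sum.inl ()) * x (Sum.inl ()) := by
    intro x
    rw [oddModel, Matrix.fromBlocks_mulVec, dotProduct, Fintype.sum_sum_type]
    simp only [Sum.elim_inl, Sum.elim_inr, Matrix.one_mulVec, Matrix.zero_mulVec, zero_add, add_zero, Function.comp_apply,
      Finset.univ_unique, Finset.sum_singleton]
    rw [add_eq_left]
    exact CfsgLib.SpGeom.form_self (x ∘ Sum.inr)
  have hblk : ∀ a : Iso (oddModel m K), ∃ A ∈ Matrix.symplecticGroup (Fin m) K,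
      (a : GL (Unit ⊕ (Fin m ⊕ Fin m)) K).1 = Matrix.fromBlocks 1 0 0 A := by
    intro a
    set M := (a : GL (Unit ⊕ (Fin m ⊕ Fin m)) K).1 with hM
    have ha : Mᵀ * oddModel m K * M = oddModel m K := a.2
    have hrow : ∀ j, M (Sum.inl ()) j = (1 : Matrix (Unit ⊕ (Fin m ⊕ Fin m)) (Unit ⊕ (Fin m ⊕ Fin m)) K) (Sum.inl ()) j := fun j => by
      have e := hval (M *ᵥ Pi.single j 1)
      rw [form_of_mulVec, ha, hval, Matrix.mulVec_single_one] at e
      refine (sqrt_inj h2 e).symm.trans ?_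
      simp [Matrix.one_apply, Pi.single_apply, eq_comm]
    obtain ⟨P, R, S, A, hPQ⟩ : ∃ P R S A, M = Matrix.fromBlocks P R S A := ⟨_, _, _, _, (fromBlocks_toBlocks M).symm⟩
    have hP : P = 1 := Matrix.ext fun i j => by
      have := hrow (Sum.inl j)
      rw [hPQ] at this
      simpa [Matrix.one_apply] using this
    have hR : R = 0 := Matrix.ext fun i j => by
      have := hrow (Sum.inr j)
      rw [hPQ] at this
      simpa [Matrix.one_apply] using this
    rw [hPQ, hP, hR, oddModel, Matrix.fromBlocks_transpose, Matrix.fromBlocks_multiply, Matrix.fromBlocks_multiply,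
      Matrix.fromBlocks_inj] at ha
    obtain ⟨-, h12, -, h22⟩ := ha
    simp only [Matrix.transpose_zero, Matrix.zero_mul, Matrix.mul_zero, zero_add, add_zero] at h12 h22
    have hA : A ∈ Matrix.symplecticGroup (Fin m) K := SymplecticGroup.mem_iff'.2 h22
    refine ⟨A, hA, ?_⟩
    have hS : S = 0 := by
      have h3 : (Sᵀ * Matrix.J (Fin m) K * A) = 0 := h12
      have hu : IsUnit (Matrix.J (Fin m) K * A).det := by
        rw [Matrix.det_mul, SymplecticGroup.det_eq_one hA, mul_one]; exact Matrix.isUnit_det_J _ _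
      have h4 := congrArg (· * (Matrix.J (Fin m) K * A)⁻¹) h3
      simp only [Matrix.zero_mul] at h4
      rw [Matrix.mul_assoc Sᵀ, Matrix.mul_assoc Sᵀ, Matrix.mul_nonsing_inv _ hu, Matrix.mul_one] at h4
      exact Matrix.transpose_eq_zero.1 h4
    rw [hPQ, hP, hR, hS]
  choose A hA hA' using hblk
  let f : Matrix.symplecticGroup (Fin m) K → Iso (oddModel m K) := fun A =>
    ⟨GeneralLinearGroup.mkOfDetNeZero _ (det_blockOne A.2), by
      change (Matrix.fromBlocks 1 0 0 A.1)ᵀ * oddModel m K * Matrix.fromBlocks 1 0 0 A.1 = oddModel m K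
      rw [oddModel, Matrix.fromBlocks_transpose, Matrix.fromBlocks_multiply, Matrix.fromBlocks_multiply]
      simp [SymplecticGroup.mem_iff'.1 A.2]⟩
  exact ⟨{ toFun := fun a => ⟨A a, hA a⟩
           invFun := f
           left_inv := fun a => Subtype.ext (Units.ext (hA' a).symm)
           right_inv := fun B => Subtype.ext
             (Matrix.fromBlocks_inj.1 ((hA' (f B)).symm.trans (rfl : (f B).1.1 = Matrix.fromBlocks 1 0 0 B.1))).2.2.2
           map_mul' := fun a b => Subtype.ext (by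
             have h1 := hA' (a * b)
             rw [Subgroup.coe_mul, Units.val_mul, hA', hA', Matrix.fromBlocks_multiply, Matrix.fromBlocks_inj] at h1
             simp only [Matrix.zero_mul, Matrix.mul_zero, zero_add, add_zero] at h1
             exact h1.2.2.2.symm) }⟩

/-- A symplectic transvection and the isometries of the non-alternating model. -/
theorem exists_transvection_model [Finite K] (h2 : (2 : K) = 0) (i₀ : Fin m) :
    ∃ t : Matrix.symplecticGroup (Fin m) K, Cfsg.IsTransvection (t : Matrix (Fin m ⊕ Fin m) (Fin m ⊕ Fin m) K) ∧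
      Nonempty (Iso (evenModel i₀ K) ≃* Subgroup.centralizer ({t} : Set (Matrix.symplecticGroup (Fin m) K))) := by
  set u := secondVec i₀ K with hu
  set l := firstVec i₀ K with hl
  set J := Matrix.J (Fin m) K with hJ
  have hJu : J *ᵥ u = l := J_mulVec_secondVec h2 i₀
  have hJl : J *ᵥ l = u := by rw [← hJu, Matrix.mulVec_mulVec, J_mul_self_two h2, Matrix.one_mulVec]
  have hlu : l ⬝ᵥ u = 0 := by simp [hl, hu, firstVec, secondVec]
  have hl0 : l ≠ 0 := Pi.single_ne_zero_iff.2 one_ne_zero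
  have hu0 : u ≠ 0 := Pi.single_ne_zero_iff.2 one_ne_zero
  set T : Matrix (Fin m ⊕ Fin m) (Fin m ⊕ Fin m) K := 1 + vecMulVec u l with hT
  have hJT : J * vecMulVec u l = vecMulVec l l := by rw [Matrix.mul_vecMulVec, hJu]
  have hTJ : vecMulVec l u * J = vecMulVec l l := by
    rw [Matrix.vecMulVec_mul, ← Matrix.mulVec_transpose, hJ, J_transpose_two h2, ← hJ, hJu]
  have hTmem : T ∈ Matrix.symplecticGroup (Fin m) K := by
    rw [SymplecticGroup.mem_iff', hT, Matrix.transpose_add, Matrix.transpose_one, Matrix.transpose_vecMulVec,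
      Matrix.add_mul, Matrix.one_mul, Matrix.add_mul, Matrix.mul_add, Matrix.mul_add, Matrix.mul_one, Matrix.mul_one,
      ← hJ, hTJ, hJT, Matrix.vecMulVec_mul_vecMulVec, hlu, zero_smul, vecMulVec_zero, add_zero, add_assoc]
    ext i j
    simp only [Matrix.add_apply]
    linear_combination (vecMulVec l l i j) * h2
  refine ⟨⟨T, hTmem⟩, ⟨?_, ?_⟩, ?_⟩
  · change (T - 1).rank = 1
    rw [hT, add_sub_cancel_left]
    refine le_antisymm (Matrix.rank_vecMulVec_le _ _) (Nat.one_le_iff_ne_zero.2 fun h => ?_)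
    rw [Matrix.rank, Submodule.finrank_eq_zero, LinearMap.range_eq_bot] at h
    replace h : vecMulVec u l = 0 := Matrix.ext_iff_mulVec.2 fun x => by
      rw [Matrix.zero_mulVec, ← Matrix.mulVecLin_apply, h, LinearMap.zero_apply]
    have := congrFun (congrFun h (Sum.inr i₀)) (Sum.inl i₀)
    simp [hu, hl, firstVec, secondVec, vecMulVec_apply] at this
  · change (T - 1) * (T - 1) = 0
    rw [hT, add_sub_cancel_left, Matrix.vecMulVec_mul_vecMulVec, hlu, zero_smul, vecMulVec_zero]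
  have hval : ∀ x, x ⬝ᵥ (evenModel i₀ K *ᵥ x) = (l ⬝ᵥ x) * (l ⬝ᵥ x) := fun x => by
    rw [evenModel, ← hl, Matrix.add_mulVec, dotProduct_add, Matrix.vecMulVec_mulVec, op_smul_eq_smul, dotProduct_smul,
      smul_eq_mul, dotProduct_comm x l,
      show x ⬝ᵥ (Matrix.J (Fin m) K *ᵥ x) = 0 from CfsgLib.SpGeom.form_self x, zero_add]
  have hmemJ : ∀ a : Iso (evenModel i₀ K), (a : GL (Fin m ⊕ Fin m) K).1ᵀ *ᵥ l = l ∧
      (a : GL (Fin m ⊕ Fin m) K).1ᵀ * J * (a : GL (Fin m ⊕ Fin m) K).1 = J := by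
    intro a
    set M := (a : GL (Fin m ⊕ Fin m) K).1
    have ha : Mᵀ * evenModel i₀ K * M = evenModel i₀ K := a.2
    have h1 : Mᵀ *ᵥ l = l := funext fun i => by
      have e := hval (M *ᵥ Pi.single i 1)
      rw [form_of_mulVec, ha, hval] at e
      have h3 := (sqrt_inj h2 e).symm
      rw [Matrix.dotProduct_mulVec, ← Matrix.mulVec_transpose] at h3
      simpa using h3
    refine ⟨h1, ?_⟩
    rw [evenModel, ← hl, Matrix.mul_add, Matrix.add_mul, Matrix.mul_vecMulVec, Matrix.vecMulVec_mul,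
      ← Matrix.mulVec_transpose, h1, ← hJ] at ha
    exact add_right_cancel ha
  have hfix : ∀ (M : Matrix (Fin m ⊕ Fin m) (Fin m ⊕ Fin m) K), M ∈ Matrix.symplecticGroup (Fin m) K →
      (Mᵀ *ᵥ l = l ↔ M *ᵥ u = u) := by
    intro M hM
    have hM' : Mᵀ * J * M = J := SymplecticGroup.mem_iff'.1 hM
    have hi : IsUnit (Mᵀ * J).det := by
      rw [Matrix.det_mul, Matrix.det_transpose, SymplecticGroup.det_eq_one hM, one_mul]
      exact Matrix.isUnit_det_J _ _
    have e : (Mᵀ * J) *ᵥ (M *ᵥ u) = l := by rw [Matrix.mulVec_mulVec, hM', hJu]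
    constructor
    · intro h
      refine Matrix.mulVec_injective_iff_isUnit.2 ((Matrix.isUnit_iff_isUnit_det _).2 hi) ?_
      rw [e, ← Matrix.mulVec_mulVec, hJu, h]
    · intro h
      rw [h, ← Matrix.mulVec_mulVec, hJu] at e
      exact e
  have hcomm : ∀ M : Matrix (Fin m ⊕ Fin m) (Fin m ⊕ Fin m) K, M *ᵥ u = u → Mᵀ *ᵥ l = l → M * T = T * M := by
    intro M h1 h3
    rw [hT, Matrix.mul_add, Matrix.add_mul, Matrix.mul_one, Matrix.one_mul, Matrix.mul_vecMulVec, h1,
      Matrix.vecMulVec_mul, ← Matrix.mulVec_transpose, h3]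
  refine ⟨{
    toFun := fun a => ⟨⟨a.1.1, SymplecticGroup.mem_iff'.2 (hmemJ a).2⟩,
      Subgroup.mem_centralizer_singleton_iff.2 (Subtype.ext (hcomm _
        ((hfix _ (SymplecticGroup.mem_iff'.2 (hmemJ a).2)).1 (hmemJ a).1) (hmemJ a).1))⟩
    invFun := fun A => ⟨GeneralLinearGroup.mkOfDetNeZero A.1.1
        (by rw [SymplecticGroup.det_eq_one A.1.2]; exact one_ne_zero), ?_⟩
    left_inv := fun a => Subtype.ext (Units.ext rfl)
    right_inv := fun A => Subtype.ext (Subtype.ext rfl)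
    map_mul' := fun a b => Subtype.ext (Subtype.ext rfl) }⟩
  change A.1.1ᵀ * evenModel i₀ K * A.1.1 = evenModel i₀ K
  set M := A.1.1 with hM
  have hc : M * T = T * M := congrArg Subtype.val (Subgroup.mem_centralizer_singleton_iff.1 A.2)
  rw [hT, Matrix.mul_add, Matrix.add_mul, Matrix.mul_one, Matrix.one_mul, add_right_inj, Matrix.mul_vecMulVec,
    Matrix.vecMulVec_mul, ← Matrix.mulVec_transpose] at hc
  have hAJ : Mᵀ * J * M = J := SymplecticGroup.mem_iff'.1 A.1.2
  have hlt : Mᵀ *ᵥ l = l := by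
    have hs : M *ᵥ u = ((Mᵀ *ᵥ l) (Sum.inl i₀)) • u := funext fun i => by
      have := congrFun (congrFun hc i) (Sum.inl i₀)
      simp only [vecMulVec_apply] at this
      rw [show l (Sum.inl i₀) = (1 : K) from Pi.single_eq_same _ _, mul_one] at this
      rw [this, Pi.smul_apply, smul_eq_mul, mul_comm]
    set s := (Mᵀ *ᵥ l) (Sum.inl i₀)
    have h4 : Mᵀ *ᵥ l = s • l := funext fun j => by
      have := congrFun (congrFun hc (Sum.inr i₀)) j
      simp only [vecMulVec_apply, hs, Pi.smul_apply, smul_eq_mul] at this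
      rw [show u (Sum.inr i₀) = (1 : K) from Pi.single_eq_same _ _, mul_one, one_mul] at this
      rw [← this, Pi.smul_apply, smul_eq_mul]
    have h5 : (Mᵀ * J * M) *ᵥ u = (s * s) • l := by
      rw [← Matrix.mulVec_mulVec, hs, Matrix.mulVec_smul, ← Matrix.mulVec_mulVec, hJu, h4, smul_smul]
    rw [hAJ, hJu] at h5
    have h6 : s = 1 := sqrt_inj h2 (by
      have := congrFun h5 (Sum.inl i₀)
      simp only [Pi.smul_apply, smul_eq_mul, hl, firstVec, Pi.single_eq_same, mul_one] at this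
      rw [one_mul]; exact this.symm)
    rw [h4, h6, one_smul]
  rw [evenModel, ← hl, Matrix.mul_add, Matrix.add_mul, ← hJ, hAJ, Matrix.mul_vecMulVec, Matrix.vecMulVec_mul,
    ← Matrix.mulVec_transpose, hlt]

/-- In characteristic two the odd-dimensional conformal group is symplectic. -/
theorem pgo_odd_two [Fintype K] [CharP K 2] (m : ℕ) :
    Nonempty (Matrix.symplecticGroup (Fin m) K ≃* Cfsg.PGO K (Cfsg.quadFormOdd m K)) := by
  obtain ⟨e⟩ := Cfsg.Agent.S0304.result (F := K) m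
  obtain ⟨e'⟩ := isometry_equiv_projQuot (CharTwo.two_eq_zero (R := K)) (Q := CfsgLib.Forms.quadOdd K m)
    (u := Pi.single (Sum.inl ()) 1) (by simp [Cfsg.quadFormOdd])
  rw [CfsgLib.Forms.coe_quadOdd] at e'
  exact ⟨e.symm.trans e'⟩

end CfsgLib.GraphInv
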