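import Cfsg.Agent.GraphInv.Sim
import Cfsg.Agent.Forms.Classify
import Cfsg.Agent.S0752
set_option autoImplicit false

/-!
Symmetric and alternating matrices over a finite field of odd order, up to congruence.
-/

namespace CfsgLib.GraphInv

open Matrix QuadraticMap CfsgLib.Forms

variable {K : Type*} [Field K] {n : ℕ}

theorem dot_transpose {I : Type} [Fintype I] (G : Matrix I I K) (x y : I → K) :
    x ⬝ᵥ (G *ᵥ y) = y ⬝ᵥ (Gᵀ *ᵥ x) := by
  rw [Matrix.mulVec_transpose, Matrix.dotProduct_mulVec, dotProduct_comm]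

theorem alt_of_skew {I : Type} [Fintype I] (h2 : (2 : K) ≠ 0) {G : Matrix I I K} (hG : Gᵀ = -G) (x : I → K) :
    x ⬝ᵥ (G *ᵥ x) = 0 := by
  have e := dot_transpose G x x
  rw [hG, Matrix.neg_mulVec, dotProduct_neg] at e
  exact (mul_eq_zero.1 (show 2 * (x ⬝ᵥ (G *ᵥ x)) = 0 by linear_combination e)).resolve_left h2

theorem skew_of_alt {I : Type} [Fintype I] [DecidableEq I] {G : Matrix I I K} (hG : ∀ x, x ⬝ᵥ (G *ᵥ x) = 0) :
    Gᵀ = -G := by
  ext i j
  have h1 := hG (Pi.single i 1 + Pi.single j 1)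
  rw [Matrix.mulVec_add, add_dotProduct, dotProduct_add, dotProduct_add, hG, hG] at h1
  simp at h1
  rw [Matrix.transpose_apply, Matrix.neg_apply]
  linear_combination h1

theorem det_J_ne_zero {m : ℕ} : (Matrix.J (Fin m) K).det ≠ 0 := (Matrix.isUnit_det_J (Fin m) K).ne_zero

/-- A non-singular alternating matrix is congruent to the standard one. -/
theorem exists_cong_J {G : Matrix (Fin n) (Fin n) K} (hG : G.det ≠ 0) (halt : ∀ x, x ⬝ᵥ (G *ᵥ x) = 0) :
    ∃ m, n = m + m ∧ Cong G (Matrix.J (Fin m) K) := by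
  set B : LinearMap.BilinForm K (Fin n → K) := Matrix.toBilin' G with hB
  have hBapp : ∀ x y, B x y = x ⬝ᵥ (G *ᵥ y) := fun x y => Matrix.toBilin'_apply' G x y
  have hA : B.IsAlt := fun x => by rw [hBapp]; exact halt x
  obtain ⟨m, k, b, hef, hee, hff, hrad⟩ := Cfsg.Agent.S0752.result B hA
  have hk0 : k = 0 := by
    by_contra hk
    refine b.ne_zero (Sum.inr ⟨0, Nat.pos_of_ne_zero hk⟩)
      (Matrix.eq_zero_of_vecMul_eq_zero hG (dotProduct_eq_zero _ fun y => ?_))
    rw [← Matrix.dotProduct_mulVec, ← hBapp]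
    exact hrad _ y
  subst hk0
  have hcard : n = m + m := by
    have h1 := Module.finrank_eq_card_basis b
    rw [Module.finrank_fin_fun] at h1
    simpa using h1
  refine ⟨m, hcard, cong_of_vectors G det_J_ne_zero (by simpa using hcard.symm) (fun i => b (Sum.inl i))
    (c := -1) (neg_ne_zero.2 one_ne_zero) fun i j => ?_⟩
  rw [← hBapp]
  have hfe : ∀ i j : Fin m, B (b (Sum.inl (Sum.inr i))) (b (Sum.inl (Sum.inl j))) = if i = j then -1 else 0 :=
    fun i j => by
      have h1 := LinearMap.BilinForm.IsAlt.neg_eq hA (b (Sum.inl (Sum.inl j))) (b (Sum.inl (Sum.inr i)))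
      rw [← h1, hef]
      by_cases h : i = j <;> simp [h, eq_comm]
      try exact fun e => absurd e.symm h
  rcases i with i | i <;> rcases j with j | j
  · simp [Matrix.J, hee]
  · by_cases h : i = j <;> simp [Matrix.J, hef, h]
  · simp [Matrix.J, hfe, Matrix.one_apply]
  · simp [Matrix.J, hff]

/-- The quadratic form of a matrix. -/
noncomputable def qf {I : Type} [Fintype I] [DecidableEq I] (G : Matrix I I K) : QuadraticForm K (I → K) :=
  LinearMap.BilinMap.toQuadraticMap (Matrix.toBilin' G)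

theorem qf_apply {I : Type} [Fintype I] [DecidableEq I] (G : Matrix I I K) (x : I → K) :
    qf G x = x ⬝ᵥ (G *ᵥ x) := Matrix.toBilin'_apply' G x x

theorem polar_qf {I : Type} [Fintype I] [DecidableEq I] {G : Matrix I I K} (hG : Gᵀ = G) (x y : I → K) :
    polar (⇑(qf G)) x y = 2 * (x ⬝ᵥ (G *ᵥ y)) := by
  rw [polar, qf_apply, qf_apply, qf_apply, Matrix.mulVec_add, add_dotProduct, dotProduct_add, dotProduct_add,
    dot_transpose G y x, hG]
  ring

theorem qf_nondegenerate {I : Type} [Fintype I] [DecidableEq I] (h2 : (2 : K) ≠ 0) {G : Matrix I I K}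
    (hG : G.det ≠ 0) (hGt : Gᵀ = G) : (polarBilin (qf G)).Nondegenerate := by
  refine CfsgLib.Forms.nondegenerate_iff.2 fun x hx => ?_
  refine Matrix.eq_zero_of_vecMul_eq_zero hG (dotProduct_eq_zero _ fun y => ?_)
  rw [← Matrix.dotProduct_mulVec]
  have := hx y
  rw [polar_qf hGt] at this
  exact (mul_eq_zero.1 this).resolve_left h2

theorem form_of_mulVec {I : Type} [Fintype I] (A G : Matrix I I K) (x y : I → K) :
    (A *ᵥ x) ⬝ᵥ (G *ᵥ (A *ᵥ y)) = x ⬝ᵥ ((Aᵀ * G * A) *ᵥ y) := by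
  rw [Matrix.mul_assoc, ← Matrix.mulVec_mulVec, ← Matrix.mulVec_mulVec, Matrix.dotProduct_mulVec x,
    Matrix.vecMul_transpose]

/-- Symmetric matrices with the same square class of determinant are congruent. -/
theorem exists_exact [Fintype K] (h2 : (2 : K) ≠ 0) {G M : Matrix (Fin n) (Fin n) K} (hG : G.det ≠ 0)
    (hGt : Gᵀ = G) (hM : M.det ≠ 0) (hMt : Mᵀ = M) (hsq : IsSquare (G.det * M.det)) :
    ∃ P : Matrix (Fin n) (Fin n) K, Pᵀ * M * P = G := by
  have hgram : ∀ A : Matrix (Fin n) (Fin n) K, Aᵀ = A →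
      gram (⇑(qf A)) (Pi.basisFun K (Fin n)) = (2 : K) • A := fun A hA => by
    ext i j
    simp [CfsgLib.Forms.gram, polar_qf hA]
  obtain ⟨g, hg⟩ := exists_isometry_of_isSquare h2 (qf_nondegenerate h2 hG hGt) (qf_nondegenerate h2 hM hMt)
    (Pi.basisFun K (Fin n)) (by
      rw [hgram G hGt, hgram M hMt, Matrix.det_smul, Matrix.det_smul]
      obtain ⟨r, hr⟩ := hsq
      exact ⟨2 ^ Fintype.card (Fin n) * r, by linear_combination (2 : K) ^ Fintype.card (Fin n) * 2 ^ Fintype.card (Fin n) * hr⟩)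
  refine ⟨LinearMap.toMatrix' g.toLinearMap, Matrix.ext fun i j => ?_⟩
  have hAx : ∀ x, LinearMap.toMatrix' g.toLinearMap *ᵥ x = g x := fun x => by
    rw [← Matrix.toLin'_apply, Matrix.toLin'_toMatrix']; rfl
  have hp : polar (⇑(qf M)) (g (Pi.single i 1)) (g (Pi.single j 1)) = polar (⇑(qf G)) (Pi.single i 1) (Pi.single j 1) := by
    rw [polar, polar, ← map_add g, hg, hg, hg]
  rw [polar_qf hMt, polar_qf hGt, ← hAx, ← hAx, form_of_mulVec] at hp
  simpa using mul_left_cancel₀ h2 hp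

theorem cong_of_isSquare [Fintype K] (h2 : (2 : K) ≠ 0) {G M : Matrix (Fin n) (Fin n) K} (hG : G.det ≠ 0)
    (hGt : Gᵀ = G) (hM : M.det ≠ 0) (hMt : Mᵀ = M) (hsq : IsSquare (G.det * M.det)) : Cong M G := by
  obtain ⟨P, hP⟩ := exists_exact h2 hG hGt hM hMt hsq
  have hd : P.det ≠ 0 := fun h0 => hG (by rw [← hP, Matrix.det_mul, h0, mul_zero])
  exact ⟨P, P⁻¹, Matrix.mul_nonsing_inv _ (isUnit_iff_ne_zero.2 hd),
    Matrix.nonsing_inv_mul _ (isUnit_iff_ne_zero.2 hd), 1, one_ne_zero, by rw [hP, one_smul]⟩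

/-- In odd dimension all symmetric non-singular matrices are congruent up to scalars. -/
theorem cong_of_odd [Fintype K] (h2 : (2 : K) ≠ 0) (hn : Odd n) {G M : Matrix (Fin n) (Fin n) K} (hG : G.det ≠ 0)
    (hGt : Gᵀ = G) (hM : M.det ≠ 0) (hMt : Mᵀ = M) : Cong M G := by
  set c : K := G.det * M.det with hc
  have hc0 : c ≠ 0 := mul_ne_zero hG hM
  refine Cong.trans (cong_of_isSquare h2 (G := c • G) (by rw [Matrix.det_smul]; exact mul_ne_zero (pow_ne_zero _ hc0) hG)
    (by rw [Matrix.transpose_smul, hGt]) hM hMt ?_) (Cong.symm (cong_smul G hc0))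
  obtain ⟨k, rfl⟩ := hn
  rw [Matrix.det_smul, Fintype.card_fin, hc]
  exact ⟨(G.det * M.det) ^ (k + 1), by ring⟩

/-- The two classes in even dimension. -/
def IsPlusDet {I : Type} [Fintype I] [DecidableEq I] (m : ℕ) (G : Matrix I I K) : Prop :=
  IsSquare ((-1 : K) ^ m * G.det)

theorem isPlusDet_iff_of_cong {I : Type} [Fintype I] [DecidableEq I] {m : ℕ} (hI : Fintype.card I = 2 * m)
    {G G' : Matrix I I K} (h : Cong G G') : IsPlusDet m G ↔ IsPlusDet m G' := by
  obtain ⟨c, t, hc, ht, e⟩ := h.det_rel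
  rw [hI] at e
  constructor
  · rintro ⟨r, hr⟩
    refine ⟨r * t / c ^ m, ?_⟩
    field_simp
    linear_combination t ^ 2 * hr - (-1) ^ m * e
  · rintro ⟨r, hr⟩
    refine ⟨r * c ^ m / t, ?_⟩
    field_simp
    linear_combination (c ^ m) ^ 2 * hr + (-1) ^ m * e

theorem isSquare_mul_of_iff [Fintype K] {a b : K} (ha : a ≠ 0) (hb : b ≠ 0)
    (h : IsSquare a ↔ IsSquare b) : IsSquare (a * b) := by
  classical
  by_cases hs : IsSquare a
  · exact hs.mul (h.1 hs)
  · have h1 := quadraticChar_neg_one_iff_not_isSquare.2 hs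
    have h3 := quadraticChar_neg_one_iff_not_isSquare.2 (fun hb' => hs (h.2 hb'))
    refine (quadraticChar_one_iff_isSquare (mul_ne_zero ha hb)).1 ?_
    rw [map_mul, h1, h3]; norm_num

theorem cong_of_isPlusDet_iff [Fintype K] (h2 : (2 : K) ≠ 0) {m : ℕ} {G M : Matrix (Fin n) (Fin n) K} (hG : G.det ≠ 0)
    (hGt : Gᵀ = G) (hM : M.det ≠ 0) (hMt : Mᵀ = M) (h : IsPlusDet m G ↔ IsPlusDet m M) : Cong M G := by
  refine cong_of_isSquare h2 hG hGt hM hMt ?_
  have hne : (-1 : K) ^ m ≠ 0 := pow_ne_zero _ (neg_ne_zero.2 one_ne_zero)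
  obtain ⟨r, hr⟩ := isSquare_mul_of_iff (mul_ne_zero hne hG) (mul_ne_zero hne hM) h
  refine ⟨r / (-1) ^ m, ?_⟩
  field_simp
  linear_combination hr

/-! ### The standard quadratic forms -/

/-- The Gram matrix on the standard basis. -/
def gramM {I : Type} [Fintype I] [DecidableEq I] (Q : (I → K) → K) : Matrix I I K :=
  gram Q fun i => Pi.single i 1

theorem gramM_eq {I : Type} [Fintype I] [DecidableEq I] (Q : (I → K) → K) :
    gramM Q = gram Q (Pi.basisFun K I) := by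
  unfold gramM
  congr 1
  funext i
  simp

theorem gramM_transpose {I : Type} [Fintype I] [DecidableEq I] (Q : QuadraticForm K (I → K)) :
    (gramM ⇑Q)ᵀ = gramM ⇑Q := Matrix.ext fun i j => polar_comm _ _ _

theorem polar_eq_gramM {I : Type} [Fintype I] [DecidableEq I] (Q : QuadraticForm K (I → K)) (x y : I → K) :
    polar (⇑Q) x y = x ⬝ᵥ (gramM ⇑Q *ᵥ y) := by
  rw [← polarBilin_apply_apply]
  conv_lhs => rw [← Matrix.toBilin'_toMatrix' (polarBilin Q)]
  rw [Matrix.toBilin'_apply']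
  have e : LinearMap.BilinForm.toMatrix' (polarBilin Q) = gramM ⇑Q := by
    ext i j
    simp [gramM, CfsgLib.Forms.gram, LinearMap.BilinForm.toMatrix'_apply]
  rw [e]

/-- Similitudes of a quadratic form in odd characteristic. -/
theorem sim_gramM {I : Type} [Fintype I] [DecidableEq I] (h2 : (2 : K) ≠ 0) (Q : QuadraticForm K (I → K)) :
    Sim (gramM ⇑Q) = Cfsg.Geo.quadSimilarityGroup (F := K) ⇑Q := by
  ext a
  constructor
  · rintro ⟨c, hc⟩
    refine ⟨c, fun v => mul_left_cancel₀ h2 ?_⟩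
    have e : polar (⇑Q) ((a : Matrix I I K) *ᵥ v) ((a : Matrix I I K) *ᵥ v) = c * polar (⇑Q) v v := by
      rw [polar_eq_gramM, polar_eq_gramM, form_of_mulVec, hc, Matrix.smul_mulVec, dotProduct_smul, smul_eq_mul]
    rw [polar_self, polar_self, nsmul_eq_mul, nsmul_eq_mul] at e
    push_cast at e
    linear_combination e
  · rintro ⟨c, hc⟩
    refine ⟨c, Matrix.ext fun i j => ?_⟩
    have e : polar (⇑Q) ((a : Matrix I I K) *ᵥ Pi.single i 1) ((a : Matrix I I K) *ᵥ Pi.single j 1) =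
        c * polar (⇑Q) (Pi.single i 1) (Pi.single j 1) := by
      simp only [polar, ← Matrix.mulVec_add, hc]; ring
    rw [polar_eq_gramM, form_of_mulVec, polar_eq_gramM] at e
    simpa using e

theorem det_gramM_plus (m : ℕ) : (gramM (Cfsg.quadFormPlus m K)).det = (-1) ^ m := by
  rw [← det_gram_pairs (standard_pairs (F := K) m), ← coe_quadPlus]
  congr 1
  ext (i | i) (j | j) <;> simp [gramM, CfsgLib.Forms.gram]

theorem det_gramM_minus (m : ℕ) (a b : K) :
    (gramM (Cfsg.quadFormMinus m K a b)).det = (-1) ^ m * (4 * b - a ^ 2) := by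
  have e : gramM (Cfsg.quadFormMinus m K a b) =
      Matrix.fromBlocks (gramM (Cfsg.quadFormPlus m K)) 0 0 !![2, a; a, 2 * b] := by
    ext ((i | i) | i) ((j | j) | j) <;>
      simp [gramM, CfsgLib.Forms.gram, polar_minus, polar_plus, Pi.single_apply]
    try (fin_cases i <;> fin_cases j <;> simp)
  rw [e, Matrix.det_fromBlocks_zero₂₁, det_gramM_plus, Matrix.det_fin_two_of]
  ring

theorem not_isPlusDet_minus (h2 : (2 : K) ≠ 0) (m : ℕ) {a b : K}
    (hab : ∀ z₁ z₂ : K, z₁ ^ 2 + a * z₁ * z₂ + b * z₂ ^ 2 = 0 → z₁ = 0 ∧ z₂ = 0) :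
    ¬ IsPlusDet (m + 1) (gramM (Cfsg.quadFormMinus m K a b)) := by
  rintro ⟨r, hr⟩
  rw [det_gramM_minus] at hr
  have hsq : r * r = a ^ 2 - 4 * b := by
    rw [← hr, ← mul_assoc, ← pow_add, show m + 1 + m = 2 * m + 1 by ring, pow_succ, pow_mul, neg_one_sq, one_pow]
    ring
  refine one_ne_zero (hab ((r - a) / 2) 1 ?_).2
  field_simp
  linear_combination hsq

theorem isPlusDet_plus (m : ℕ) : IsPlusDet m (gramM (Cfsg.quadFormPlus m K)) :=
  ⟨(-1) ^ m, by rw [det_gramM_plus]⟩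

theorem exists_aniso [Fintype K] (h2 : (2 : K) ≠ 0) :
    ∃ a b : K, ∀ z₁ z₂ : K, z₁ ^ 2 + a * z₁ * z₂ + b * z₂ ^ 2 = 0 → z₁ = 0 ∧ z₂ = 0 := by
  obtain ⟨ν, hν⟩ := FiniteField.exists_nonsquare (F := K) (fun h => h2 (by
    haveI := ringChar.of_eq h
    exact CharTwo.two_eq_zero))
  refine ⟨0, -ν, fun z₁ z₂ h => ?_⟩
  by_cases hz : z₂ = 0
  · subst hz; simp at h; exact ⟨h, rfl⟩
  · exact absurd ⟨z₁ / z₂, by field_simp; linear_combination -h⟩ hν

end CfsgLib.GraphInv
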