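import Cfsg.Agent.AutPSL.FieldAut
set_option autoImplicit false

/-!
Class splitting through determinants, and indices of subgroups of powers in cyclic groups.
-/

namespace CfsgLib.GraphInv

/-- Splitting of a class when `d` detects the inner subgroup and has image `P` on the centraliser. -/
theorem split_count {X M A : Type*} [Group X] [Group M] [CommGroup A] (φ : X →* M) (Kn : Subgroup M) [Kn.Normal]
    (hKn : Kn ≤ φ.range) (d : X →* A) (hd : Function.Surjective d) (P : Subgroup A) (γ : M)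
    (hK : ∀ g, φ g ∈ Kn → d g ∈ P) (hd1 : ∀ g, d g = 1 → φ g ∈ Kn)
    (hC : ∀ g, φ g * γ = γ * φ g → d g ∈ P)
    (hP : ∀ a ∈ P, ∃ g, φ g * γ = γ * φ g ∧ d g = a) :
    Cfsg.splitClassCount φ.range Kn γ = P.index := by
  classical
  let π : X →* A ⧸ P := (QuotientGroup.mk' P).comp d
  have hπ : φ.rangeRestrict.ker ≤ π.ker := fun g hg => by
    rw [MonoidHom.ker_rangeRestrict, MonoidHom.mem_ker] at hg
    exact (QuotientGroup.eq_one_iff _).mpr (hK g (by rw [hg]; exact one_mem _))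
  let θ := MonoidHom.liftOfSurjective φ.rangeRestrict (MonoidHom.rangeRestrict_surjective _) ⟨π, hπ⟩
  have hθ : ∀ g, θ (φ.rangeRestrict g) = π g := fun g =>
    MonoidHom.liftOfRightInverse_comp_apply _ _ (Function.rightInverse_surjInv _) ⟨π, hπ⟩ g
  rw [CfsgLib.AutPSL.splitClassCount_eq_card (A := A ⧸ P) _ _ _ hKn θ ?_ ?_, Subgroup.index_eq_card]
  · intro a
    obtain ⟨a, rfl⟩ := QuotientGroup.mk_surjective a
    obtain ⟨g, rfl⟩ := hd a
    exact ⟨_, hθ g⟩
  · intro h
    obtain ⟨g, rfl⟩ := MonoidHom.rangeRestrict_surjective _ h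
    rw [hθ]
    constructor
    · intro hg
      obtain ⟨c, hc, hdc⟩ := hP _ ((QuotientGroup.eq_one_iff _).mp hg)
      refine ⟨φ (g * c⁻¹), hd1 _ (by rw [map_mul, map_inv, hdc, mul_inv_cancel]), φ c,
        ⟨⟨c, rfl⟩, Subgroup.mem_centralizer_singleton_iff.mpr hc⟩, ?_⟩
      rw [← map_mul, inv_mul_cancel_right]
      rfl
    · rintro ⟨k, hk, _, ⟨⟨c, rfl⟩, hc⟩, e⟩
      refine (QuotientGroup.eq_one_iff _).mpr ?_
      have h1 : φ (g * c⁻¹) = k := by
        rw [map_mul, map_inv, show φ g = k * φ c from e, mul_inv_cancel_right]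
      have h3 := mul_mem (hK _ (h1 ▸ hk)) (hC c (Subgroup.mem_centralizer_singleton_iff.mp hc))
      rwa [map_mul, map_inv, inv_mul_cancel_right] at h3

/-- The subgroup of elements whose square is an `n`-th power. -/
def sqPow (A : Type*) [CommGroup A] (n : ℕ) : Subgroup A :=
  ((powMonoidHom n : A →* A).range).comap (powMonoidHom 2)

theorem mem_sqPow {A : Type*} [CommGroup A] {n : ℕ} {x : A} : x ∈ sqPow A n ↔ ∃ y : A, y ^ n = x ^ 2 := Iff.rfl

theorem index_powers {A : Type*} [CommGroup A] [IsCyclic A] [Finite A] {N n : ℕ} (hN : Nat.card A = N) :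
    (powMonoidHom n : A →* A).range.index = Nat.gcd n N := by
  rw [IsCyclic.index_powMonoidHom_range, hN, Nat.gcd_comm]

theorem index_sqPow {A : Type*} [CommGroup A] [IsCyclic A] [Finite A] {N n : ℕ} (hN : Nat.card A = N)
    (hn : Even n) (hNe : Even N) : (sqPow A n).index = Nat.gcd n N / 2 := by
  rw [sqPow, Subgroup.index_comap]
  have hle : (powMonoidHom n : A →* A).range ≤ (powMonoidHom 2 : A →* A).range := by
    rintro _ ⟨x, rfl⟩
    obtain ⟨k, rfl⟩ := hn
    exact ⟨x ^ k, by simp only [powMonoidHom_apply, ← pow_mul]; ring_nf⟩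
  have h := Subgroup.relIndex_mul_index hle
  rw [index_powers hN, index_powers hN, Nat.gcd_eq_left (even_iff_two_dvd.1 hNe)] at h
  omega

theorem mem_powers_of_odd {A : Type*} [CommGroup A] [Finite A] {N n : ℕ} (hN : Nat.card A = N)
    (h : Odd n ∨ Odd N) {x y : A} (e : x ^ 2 = y ^ n) : x ∈ (powMonoidHom n : A →* A).range := by
  rcases h with ⟨k, rfl⟩ | ⟨k, hk⟩
  · refine ⟨x / y ^ k, ?_⟩
    have h1 : (x / y ^ k) ^ 2 = y := by
      rw [div_pow, e, ← pow_mul, div_eq_iff_eq_mul, ← pow_succ', mul_comm k 2]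
    rw [powMonoidHom_apply, pow_succ, pow_mul, h1, mul_div_cancel]
  · refine ⟨y ^ (k + 1), ?_⟩
    rw [powMonoidHom_apply, ← pow_mul, mul_comm, pow_mul, ← e, ← pow_mul,
      show 2 * (k + 1) = N + 1 by omega, pow_succ, ← hN, pow_card_eq_one', one_mul]

end CfsgLib.GraphInv
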