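import Cfsg.Agent.GraphInv.Setup
import Cfsg.Agent.GraphInv.Split
import Cfsg.Agent.AutPSL.Unique
import Cfsg.Agent.AutPSL.Balance
set_option autoImplicit false

/-!
Involutory graph automorphisms of `PSL_n(q)`.
-/

namespace CfsgLib.GraphInv

open Matrix CfsgLib.AutPSL

variable {K : Type*} [Field K] {n : ℕ}

theorem cong_inv {G : Matrix (Fin n) (Fin n) K} (hG : G.det ≠ 0) (hGs : Gᵀ = G ∨ Gᵀ = -G) : Cong G G⁻¹ := by
  have hu : IsUnit G.det := isUnit_iff_ne_zero.2 hG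
  obtain ⟨u, hu0, hu'⟩ : ∃ u : K, u ≠ 0 ∧ Gᵀ = u • G := by
    rcases hGs with h | h
    · exact ⟨1, one_ne_zero, by rw [one_smul]; exact h⟩
    · exact ⟨-1, neg_ne_zero.2 one_ne_zero, by rw [neg_one_smul]; exact h⟩
  refine ⟨G⁻¹, G, Matrix.nonsing_inv_mul _ hu, Matrix.mul_nonsing_inv _ hu, u⁻¹, inv_ne_zero hu0, ?_⟩
  have h1 : (G⁻¹)ᵀ = u⁻¹ • G⁻¹ := by
    rw [Matrix.transpose_nonsing_inv, hu']
    refine Matrix.inv_eq_right_inv ?_
    rw [Matrix.smul_mul, Matrix.mul_smul, smul_smul, mul_inv_cancel₀ hu0, one_smul, Matrix.mul_nonsing_inv _ hu]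
  rw [Matrix.mul_assoc, Matrix.mul_nonsing_inv _ hu, Matrix.mul_one, h1]

variable (g : GL (Fin n) K)

local notation "PSL'" => ProjectiveSpecialLinearGroup (Fin n) K

theorem commute_graph_iff (hn : 3 ≤ n) (a : GL (Fin n) K) :
    conjPSL a * (conjPSL g * graphPSL) = conjPSL g * graphPSL * (conjPSL a : MulAut PSL') ↔
      a ∈ Sim ((g⁻¹ : GL (Fin n) K) : Matrix (Fin n) (Fin n) K) := by
  rw [mul_assoc (conjPSL g), graphPSL_mul_conjPSL, ← mul_assoc, ← mul_assoc, ← map_mul, ← map_mul, mul_left_inj,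
    conjPSL_eq_iff' (by omega : 2 ≤ n), mem_Sim]
  set A := (a : Matrix (Fin n) (Fin n) K)
  set G := ((g⁻¹ : GL (Fin n) K) : Matrix (Fin n) (Fin n) K)
  have hgG : g.1 * G = 1 := by rw [← Units.val_mul, mul_inv_cancel, Units.val_one]
  have hGg : G * g.1 = 1 := by rw [← Units.val_mul, inv_mul_cancel, Units.val_one]
  have haa : Aᵀ * ((a⁻¹ : GL (Fin n) K) : Matrix (Fin n) (Fin n) K)ᵀ = 1 := by
    rw [← Matrix.transpose_mul, ← Units.val_mul, inv_mul_cancel, Units.val_one, Matrix.transpose_one]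
  simp only [Units.val_mul]
  change (∃ c : K, A * g.1 = c • (g.1 * ((a⁻¹ : GL (Fin n) K) : Matrix (Fin n) (Fin n) K)ᵀ)) ↔ _
  constructor
  · rintro ⟨c, hc⟩
    have e : Aᵀ * G * A = c • G := by
      calc Aᵀ * G * A = Aᵀ * G * (A * g.1) * G := by
            simp only [Matrix.mul_assoc]; rw [hgG, Matrix.mul_one]
        _ = c • (Aᵀ * (G * g.1) * ((a⁻¹ : GL (Fin n) K) : Matrix (Fin n) (Fin n) K)ᵀ * G) := by
            rw [hc, Matrix.mul_smul, Matrix.smul_mul]; simp only [Matrix.mul_assoc]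
        _ = c • G := by rw [hGg, Matrix.mul_one, haa, Matrix.one_mul]
    refine ⟨Units.mk0 c fun h0 => ?_, e⟩
    rw [h0, zero_smul] at e
    have h1 := congrArg Matrix.det e
    haveI : Nonempty (Fin n) := ⟨⟨0, by omega⟩⟩
    rw [Matrix.det_mul, Matrix.det_mul, Matrix.det_transpose, Matrix.det_zero] at h1
    exact mul_ne_zero (mul_ne_zero a.det_ne_zero (g⁻¹).det_ne_zero) a.det_ne_zero h1
  · rintro ⟨c, hc⟩
    refine ⟨(c : K), ?_⟩
    have hAi : ((a⁻¹ : GL (Fin n) K) : Matrix (Fin n) (Fin n) K)ᵀ * Aᵀ = 1 := mul_eq_one_comm.1 haa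
    calc A * g.1 = g.1 * (((a⁻¹ : GL (Fin n) K) : Matrix (Fin n) (Fin n) K)ᵀ * (Aᵀ * G * A)) * g.1 := by
          rw [← Matrix.mul_assoc _ (Aᵀ * G) A, ← Matrix.mul_assoc _ Aᵀ G, hAi, Matrix.one_mul,
            ← Matrix.mul_assoc g.1, hgG, Matrix.one_mul]
      _ = _ := by
          rw [hc, Matrix.mul_smul, Matrix.mul_smul, Matrix.smul_mul]
          simp only [Matrix.mul_assoc]
          rw [hGg, Matrix.mul_one]

theorem conj_graph (k : GL (Fin n) K) :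
    conjPSL k * (conjPSL g * graphPSL) * (conjPSL k : MulAut PSL')⁻¹ = conjPSL (k * g * graphGL k⁻¹) * graphPSL := by
  rw [← map_inv, mul_assoc (conjPSL k) (conjPSL g * graphPSL), mul_assoc (conjPSL g), graphPSL_mul_conjPSL, map_mul,
    map_mul]
  simp only [mul_assoc]

theorem graph_ne_one (hn : 3 ≤ n) : conjPSL g * graphPSL ≠ (1 : MulAut PSL') := by
  intro h
  haveI : NeZero n := ⟨by omega⟩
  obtain ⟨-, hb, -⟩ := decomposition_unique hn (g := g) (g' := 1) (σ := (1 : RingAut K)) (σ' := 1) (b := true)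
    (b' := false) (by simp only [map_one, mul_one, graphIf_true, h, graphIf_false])
  exact Bool.noConfusion hb

theorem sq_graph_iff (hn : 3 ≤ n) :
    (conjPSL g * graphPSL : MulAut PSL') ^ 2 = 1 ↔ g.1ᵀ = g.1 ∨ g.1ᵀ = -g.1 := by
  have e : (conjPSL g * graphPSL : MulAut PSL') ^ 2 = conjPSL (g * graphGL g) := by
    rw [pow_two, mul_assoc, ← mul_assoc graphPSL, graphPSL_mul_conjPSL, mul_assoc (conjPSL (graphGL g)),
      graphPSL_mul_self, mul_one, map_mul]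
  rw [e, conjPSL_eq_one_iff (by omega : 2 ≤ n)]
  have hgg : ((g⁻¹ : GL (Fin n) K) : Matrix (Fin n) (Fin n) K)ᵀ * g.1ᵀ = 1 := by
    rw [← Matrix.transpose_mul, ← Units.val_mul, mul_inv_cancel, Units.val_one, Matrix.transpose_one]
  change (∃ a : K, g.1 * ((g⁻¹ : GL (Fin n) K) : Matrix (Fin n) (Fin n) K)ᵀ = a • 1) ↔ _
  constructor
  · rintro ⟨a, ha⟩
    have h1 := congrArg (· * g.1ᵀ) ha
    simp only [Matrix.smul_mul, Matrix.one_mul, Matrix.mul_assoc, hgg, Matrix.mul_one] at h1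
    have h2 : g.1ᵀ = a • g.1 := by
      conv_lhs => rw [h1, Matrix.transpose_smul, Matrix.transpose_transpose]
    have h3 : (a * a - 1) • g.1 = 0 := by
      rw [sub_smul, one_smul, ← smul_smul, ← h2, ← h1, sub_self]
    haveI : Nonempty (Fin n) := ⟨⟨0, by omega⟩⟩
    have hg0 : g.1 ≠ 0 := fun h0 => g.det_ne_zero (by rw [h0]; exact Matrix.det_zero)
    rcases mul_self_eq_one_iff.1 (sub_eq_zero.1 ((smul_eq_zero.1 h3).resolve_right hg0)) with h | h
    · left; rw [h2, h, one_smul]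
    · right; rw [h2, h, neg_one_smul]
  · have hgg' : g.1ᵀ * ((g⁻¹ : GL (Fin n) K) : Matrix (Fin n) (Fin n) K)ᵀ = 1 := mul_eq_one_comm.1 hgg
    rintro (h | h)
    · rw [h] at hgg'
      exact ⟨1, by rw [one_smul]; exact hgg'⟩
    · refine ⟨-1, ?_⟩
      rw [h, Matrix.neg_mul] at hgg'
      rw [neg_one_smul, ← hgg', neg_neg]

/-- The representation of an involutory graph automorphism by a form. -/
def RepPSL (γ : MulAut PSL') (G : Matrix (Fin n) (Fin n) K) : Prop :=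
  (Gᵀ = G ∨ Gᵀ = -G) ∧ ∃ g : GL (Fin n) K, ((g⁻¹ : GL (Fin n) K) : Matrix (Fin n) (Fin n) K) = G ∧
    γ = conjPSL g * graphPSL

theorem inv_sym (g : GL (Fin n) K) (h : g.1ᵀ = g.1 ∨ g.1ᵀ = -g.1) :
    ((g⁻¹ : GL (Fin n) K) : Matrix (Fin n) (Fin n) K)ᵀ = (g⁻¹ : GL (Fin n) K).1 ∨
      ((g⁻¹ : GL (Fin n) K) : Matrix (Fin n) (Fin n) K)ᵀ = -(g⁻¹ : GL (Fin n) K).1 := by
  have e : ((g⁻¹ : GL (Fin n) K) : Matrix (Fin n) (Fin n) K)ᵀ * g.1ᵀ = 1 := by
    rw [← Matrix.transpose_mul, ← Units.val_mul, mul_inv_cancel, Units.val_one, Matrix.transpose_one]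
  rcases h with h | h
  · left
    rw [h] at e
    rw [← Matrix.mul_one ((g⁻¹ : GL (Fin n) K) : Matrix (Fin n) (Fin n) K)ᵀ, ← Units.val_one, ← mul_inv_cancel g,
      Units.val_mul, ← Matrix.mul_assoc, e, Matrix.one_mul]
  · right
    rw [h, Matrix.mul_neg] at e
    rw [← Matrix.mul_one ((g⁻¹ : GL (Fin n) K) : Matrix (Fin n) (Fin n) K)ᵀ, ← Units.val_one, ← mul_inv_cancel g,
      Units.val_mul, ← Matrix.mul_assoc, show ((g⁻¹ : GL (Fin n) K) : Matrix (Fin n) (Fin n) K)ᵀ * g.1 = -1 by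
        rw [← e, neg_neg], Matrix.neg_mul, Matrix.one_mul]

theorem isGraphAut_graph (hn : 3 ≤ n) : Cfsg.IsGraphAutClassPSL (conjPSL g * graphPSL : MulAut PSL') :=
  ⟨hn, conjPSL g, graphPSL, isInnerDiagonalAutPSL g, isInverseTransposeAutPSL, rfl⟩

theorem exists_rep_psl (hn : 3 ≤ n) {γ : MulAut PSL'} (h : Cfsg.IsGraphAutClassPSL γ) (h2 : orderOf γ = 2) :
    ∃ G, RepPSL γ G := by
  obtain ⟨-, δ, ι, hδ, hι, rfl⟩ := h
  obtain ⟨g, rfl⟩ := eq_conjPSL_of_isInnerDiagonal hδ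
  obtain rfl := eq_graphPSL_of_isInverseTranspose hι
  have h1 : (conjPSL g * graphPSL : MulAut PSL') ^ 2 = 1 := by rw [← h2, pow_orderOf_eq_one]
  exact ⟨_, inv_sym g ((sq_graph_iff g hn).1 h1), g, rfl, rfl⟩

theorem orderOf_of_rep (hn : 3 ≤ n) {γ : MulAut PSL'} {G : Matrix (Fin n) (Fin n) K} (h : RepPSL γ G) :
    orderOf γ = 2 := by
  obtain ⟨hGs, g, rfl, rfl⟩ := h
  haveI : Fact (Nat.Prime 2) := ⟨Nat.prime_two⟩
  have := inv_sym (g⁻¹) hGs
  rw [inv_inv] at this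
  exact orderOf_eq_prime ((sq_graph_iff g hn).2 this) (graph_ne_one g hn)

theorem mem_range_centralizer (hn : 3 ≤ n) :
    Nonempty (↥((conjPSL (F := K) (n := n)).range ⊓ Subgroup.centralizer {conjPSL g * graphPSL}) ≃*
      Cfsg.projQuot (Sim ((g⁻¹ : GL (Fin n) K) : Matrix (Fin n) (Fin n) K))) := by
  let ψ : Sim ((g⁻¹ : GL (Fin n) K) : Matrix (Fin n) (Fin n) K) →*
      ↥((conjPSL (F := K) (n := n)).range ⊓ Subgroup.centralizer {conjPSL g * graphPSL}) :=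
    (conjPSL.comp (Subgroup.subtype _)).codRestrict _ fun a => ⟨⟨_, rfl⟩,
      Subgroup.mem_centralizer_singleton_iff.mpr ((commute_graph_iff g hn a.1).2 a.2)⟩
  have hs : Function.Surjective ψ := by
    rintro ⟨_, ⟨a, rfl⟩, ha⟩
    exact ⟨⟨a, (commute_graph_iff g hn a).1 (Subgroup.mem_centralizer_singleton_iff.mp ha)⟩, rfl⟩
  have hk : ψ.ker = (Cfsg.Geo.scalars (Fin n) K).subgroupOf _ := by
    ext a
    rw [MonoidHom.mem_ker, Subtype.ext_iff, Subgroup.mem_subgroupOf, Cfsg.Geo.mem_scalars_iff]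
    change conjPSL a.1 = 1 ↔ _
    rw [conjPSL_eq_one_iff (by omega : 2 ≤ n)]
    refine ⟨fun ⟨c, hc⟩ => ⟨Units.mk0 c fun h0 => a.1.det_ne_zero ?_, hc⟩, fun ⟨c, hc⟩ => ⟨c, hc⟩⟩
    haveI : Nonempty (Fin n) := ⟨⟨0, by omega⟩⟩
    rw [hc, h0, zero_smul]
    exact Matrix.det_zero
  exact ⟨((QuotientGroup.quotientMulEquivOfEq hk.symm).trans (QuotientGroup.quotientKerEquivOfSurjective ψ hs)).symm⟩

/-- The setup of involutory graph automorphisms of `PSL_n`. -/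
noncomputable def setupPSL (hn : 3 ≤ n) : Setup (MulAut PSL') K n where
  H := (conjPSL (F := K) (n := n)).range
  Inv := fun γ => Cfsg.IsGraphAutClassPSL γ ∧ orderOf γ = 2
  Rep := RepPSL
  rep_det := fun {γ G} h => by
    obtain ⟨hGs, g, rfl, -⟩ := h
    exact ⟨(g⁻¹).det_ne_zero, hGs⟩
  exists_rep := fun {γ} h => exists_rep_psl hn h.1 h.2
  exists_inv := fun {G} hG hGs => by
    refine ⟨conjPSL (GeneralLinearGroup.mkOfDetNeZero G hG)⁻¹ * graphPSL, ?_⟩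
    have hr : RepPSL (conjPSL (GeneralLinearGroup.mkOfDetNeZero G hG)⁻¹ * graphPSL) G :=
      ⟨hGs, _, by rw [inv_inv]; rfl, rfl⟩
    exact ⟨⟨isGraphAut_graph _ hn, orderOf_of_rep hn hr⟩, hr⟩
  centralizer := fun {γ G} h => by
    obtain ⟨-, g, rfl, rfl⟩ := h
    exact mem_range_centralizer g hn
  conj_iff := fun {γ γ' G G'} h h' => by
    obtain ⟨hGs, g, rfl, rfl⟩ := h
    obtain ⟨hGs', g', rfl, rfl⟩ := h'
    have hd : g.1.det ≠ 0 := g.det_ne_zero
    have hd' : g'.1.det ≠ 0 := g'.det_ne_zero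
    have hs := inv_sym (g⁻¹) hGs
    have hs' := inv_sym (g'⁻¹) hGs'
    rw [inv_inv] at hs hs'
    have hgi : Cong g.1 (g⁻¹ : GL (Fin n) K).1 := by
      rw [Matrix.coe_units_inv]; exact cong_inv hd hs
    have hgi' : Cong g'.1 (g'⁻¹ : GL (Fin n) K).1 := by
      rw [Matrix.coe_units_inv]; exact cong_inv hd' hs'
    constructor
    · rintro ⟨_, ⟨k, rfl⟩, e⟩
      rw [conj_graph, mul_left_inj, conjPSL_eq_iff' (by omega : 2 ≤ n)] at e
      obtain ⟨c, hc⟩ := e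
      change g'.1 = c • (k.1 * g.1 * ((k⁻¹)⁻¹ : GL (Fin n) K).1ᵀ) at hc
      rw [inv_inv] at hc
      have hc0 : c ≠ 0 := fun h0 => hd' (by
        haveI : Nonempty (Fin n) := ⟨⟨0, by omega⟩⟩
        rw [hc, h0, zero_smul]; exact Matrix.det_zero)
      refine hgi.symm.trans (Cong.trans ⟨k.1ᵀ, (k⁻¹ : GL (Fin n) K).1ᵀ, ?_, ?_, c⁻¹, inv_ne_zero hc0, ?_⟩ hgi')
      · rw [← Matrix.transpose_mul, ← Units.val_mul, inv_mul_cancel, Units.val_one, Matrix.transpose_one]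
      · rw [← Matrix.transpose_mul, ← Units.val_mul, mul_inv_cancel, Units.val_one, Matrix.transpose_one]
      · rw [Matrix.transpose_transpose, hc, smul_smul, inv_mul_cancel₀ hc0, one_smul]
    · intro h
      obtain ⟨P, P', h1, h2, c, hc, e⟩ := (hgi.trans h).trans hgi'.symm
      let k : GL (Fin n) K := ⟨Pᵀ, P'ᵀ, by rw [← Matrix.transpose_mul, h2, Matrix.transpose_one],
        by rw [← Matrix.transpose_mul, h1, Matrix.transpose_one]⟩
      refine ⟨conjPSL k, ⟨k, rfl⟩, ?_⟩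
      rw [conj_graph, mul_left_inj, conjPSL_eq_iff' (by omega : 2 ≤ n)]
      refine ⟨c⁻¹, ?_⟩
      change g'.1 = c⁻¹ • (Pᵀ * g.1 * ((k⁻¹)⁻¹ : GL (Fin n) K).1ᵀ)
      rw [inv_inv, show k.1ᵀ = P from Matrix.transpose_transpose P, e, smul_smul, inv_mul_cancel₀ hc, one_smul]

/-- Splitting of a class of involutory graph automorphisms of `PSL_n`. -/
theorem split_psl [Fintype K] (hn : 3 ≤ n) {γ : MulAut PSL'} {G : Matrix (Fin n) (Fin n) K} (h : RepPSL γ G)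
    (P : Subgroup Kˣ) (hpow : (powMonoidHom n : Kˣ →* Kˣ).range ≤ P)
    (hC : ∀ a ∈ Sim G, GeneralLinearGroup.det a ∈ P)
    (hP : ∀ x ∈ P, ∃ a ∈ Sim G, GeneralLinearGroup.det a = x) :
    Cfsg.splitClassCount (Cfsg.inndiagPSL n K) (Cfsg.Inn PSL') γ = P.index := by
  haveI : NeZero n := ⟨by omega⟩
  obtain ⟨-, g, rfl, rfl⟩ := h
  haveI : (Cfsg.Inn PSL').Normal := inferInstance
  rw [inndiagPSL_eq_range]
  refine split_count conjPSL _ inn_le_range GeneralLinearGroup.det detHom_surjective P _ ?_ ?_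
    (fun a ha => hC a ((commute_graph_iff g hn a).1 ha))
    fun x hx => ?_
  · rintro a ⟨y, hy⟩
    obtain ⟨s, rfl⟩ := proj_surjective y
    rw [← conjPSL_toGL] at hy
    obtain ⟨c, hc⟩ := (conjPSL_eq_iff' (by omega : 2 ≤ n)).1 hy.symm
    have hdet : (GeneralLinearGroup.det a : K) = c ^ n := by
      change a.1.det = _
      rw [hc, Matrix.det_smul, Fintype.card_fin,
        show (Matrix.SpecialLinearGroup.toGL s).1.det = 1 from s.2, mul_one]
    have hc0 : c ≠ 0 := by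
      rintro rfl
      rw [zero_pow (NeZero.ne n)] at hdet
      exact (GeneralLinearGroup.det a).ne_zero hdet
    exact hpow ⟨Units.mk0 c hc0, Units.ext hdet.symm⟩
  · intro a ha
    exact conjPSL_mem_inn_of_det a (by rw [ha]; exact one_mem _)
  · obtain ⟨a, ha, had⟩ := hP x hx
    exact ⟨a, (commute_graph_iff g hn a).2 ha, had⟩

end CfsgLib.GraphInv
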