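import Cfsg.Agent.GraphInv.Setup
import Cfsg.Agent.GraphInv.Split
import Cfsg.Agent.AutPSU.Field
import Cfsg.Agent.Unitary.Basic
import Cfsg.Agent.AutPSL.GraphField
import Cfsg.Agent.AutPSL.Descent
import Cfsg.Agent.AutPSL.FixedField
set_option autoImplicit false

/-!
Involutory graph automorphisms of `PSU_n(q)`.
-/

namespace CfsgLib.GraphInv

open Matrix CfsgLib.AutPSU CfsgLib.UGeom CfsgLib.Unitary

variable {F : Type*} [Field F] [Fintype F] {q n : ℕ} {F₀ : Type*} [Field F₀] [Fintype F₀]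

/-- The conjugation together with its fixed field. -/
structure Fixed (C : Conj F q) (F₀ : Type*) [Field F₀] where
  σ : RingAut F
  ι : F₀ →+* F
  eq : ∀ x, σ x = C.σ x
  fix : ∀ c, σ c = c ↔ c ∈ Set.range ι

theorem nonempty_fixed (C : Conj F q) (hF₀ : Fintype.card F₀ = q) : Nonempty (Fixed C F₀) := by
  classical
  obtain ⟨σR, hσR⟩ : ∃ σR : RingAut F, ∀ x, σR x = C.σ x :=
    ⟨RingEquiv.ofBijective C.σ ⟨C.σ.injective, fun x => ⟨C.σ x, C.invol x⟩⟩, fun _ => rfl⟩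
  have hord : orderOf σR = 2 := by
    haveI : Fact (Nat.Prime 2) := ⟨Nat.prime_two⟩
    refine orderOf_eq_prime (RingEquiv.ext fun x => ?_) fun h => C.ne_id (RingHom.ext fun x => ?_)
    · rw [pow_two, RingAut.mul_apply, hσR, hσR, C.invol]; rfl
    · rw [← hσR, h]; rfl
  obtain ⟨p, hp⟩ := CharP.exists F₀
  obtain ⟨e, hpp, he⟩ := FiniteField.card F₀ p
  have hF : Fintype.card F = p ^ (2 * (e : ℕ)) := by rw [C.card, ← hF₀, he, ← pow_mul, mul_comm]
  obtain ⟨-, hfield⟩ := CfsgLib.AutPSL.fixed_field_facts hpp hF σR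
  obtain ⟨ι, hι⟩ := hfield F₀ (by rw [hord, Nat.mul_div_cancel_left _ two_pos]; exact he)
  exact ⟨⟨σR, ι, hσR, hι⟩⟩

variable {C : Conj F q} (D : Fixed C F₀)

local notation "PSU'" => Cfsg.PSU n F q
local notation "GU" => Cfsg.GU n F q
local notation "mg" A:max => (((A : GU) : GL (Fin n) F) : Matrix (Fin n) (Fin n) F)

/-- The twisted coboundary of a matrix. -/
noncomputable def cob (C : Conj F q) (h : GL (Fin n) F) : Matrix (Fin n) (Fin n) F :=
  h.1 * C.σ.mapMatrix (h⁻¹ : GL (Fin n) F).1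

theorem cob_mul (C : Conj F q) (h : GL (Fin n) F) : cob C h * C.σ.mapMatrix h.1 = h.1 := by
  rw [cob, Matrix.mul_assoc, ← map_mul, ← Units.val_mul, inv_mul_cancel, Units.val_one, map_one, Matrix.mul_one]

theorem D_fix (c : F₀) : C.σ (D.ι c) = D.ι c := by rw [← D.eq]; exact (D.fix _).2 ⟨c, rfl⟩

theorem exists_of_fix {c : F} (h : C.σ c = c) : ∃ d, D.ι d = c := (D.fix c).1 (by rw [D.eq]; exact h)

theorem σ_map (M : Matrix (Fin n) (Fin n) F₀) : C.σ.mapMatrix (D.ι.mapMatrix M) = D.ι.mapMatrix M :=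
  Matrix.ext fun _ _ => D_fix D _

theorem map_σR (M : Matrix (Fin n) (Fin n) F) : M.map D.σ = C.σ.mapMatrix M :=
  Matrix.ext fun _ _ => D.eq _

theorem adj_ι (M : Matrix (Fin n) (Fin n) F₀) : adj C.σ (D.ι.mapMatrix M) = D.ι.mapMatrix Mᵀ :=
  Matrix.ext fun i j => D_fix D (M j i)

theorem exists_fixed_matrix {Y : Matrix (Fin n) (Fin n) F} (h : C.σ.mapMatrix Y = Y) :
    ∃ Y₀ : Matrix (Fin n) (Fin n) F₀, D.ι.mapMatrix Y₀ = Y := by
  choose d hd using fun i j => exists_of_fix D (congrFun (congrFun h i) j)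
  exact ⟨Matrix.of d, Matrix.ext hd⟩

/-- A matrix invariant up to a scalar descends after scaling. -/
theorem exists_descend_matrix {Y : Matrix (Fin n) (Fin n) F} {w : F} (hY : Y ≠ 0)
    (h : C.σ.mapMatrix Y = w • Y) : ∃ (v : F) (Y₀ : Matrix (Fin n) (Fin n) F₀), v ≠ 0 ∧ D.ι.mapMatrix Y₀ = v • Y := by
  obtain ⟨i, j, hij⟩ : ∃ i j, Y i j ≠ 0 := by
    by_contra hno
    push Not at hno
    exact hY (Matrix.ext hno)
  have hw : C.σ (Y i j) = w * Y i j := congrFun (congrFun h i) j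
  refine ⟨(Y i j)⁻¹, ?_⟩
  obtain ⟨Y₀, hY₀⟩ := exists_fixed_matrix D (Y := (Y i j)⁻¹ • Y) (Matrix.ext fun k l => by
    change C.σ ((Y i j)⁻¹ * Y k l) = (Y i j)⁻¹ * Y k l
    have hw0 : w ≠ 0 := fun h0 => hij (C.σ.injective (by rw [hw, h0, zero_mul, map_zero]))
    rw [map_mul, map_inv₀, hw, show C.σ (Y k l) = w * Y k l from congrFun (congrFun h k) l]
    field_simp)
  exact ⟨Y₀, inv_ne_zero hij, hY₀⟩

/-- The representation of an involutory graph automorphism by a form over the fixed field. -/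
def RepPSU (γ : MulAut PSU') (G₀ : Matrix (Fin n) (Fin n) F₀) : Prop :=
  G₀.det ≠ 0 ∧ (G₀ᵀ = G₀ ∨ G₀ᵀ = -G₀) ∧ ∃ (h : GL (Fin n) F) (ε ν : F) (g : GU), ε ≠ 0 ∧ ν ≠ 0 ∧
    adj C.σ h.1 * h.1 = ε • D.ι.mapMatrix G₀ ∧ mg g = ν • cob C h ∧ γ = conjPSU g * fieldPSU D.σ

theorem sq_graph (g : GU) :
    (conjPSU g * fieldPSU D.σ : MulAut PSU') ^ 2 = conjPSU (g * fieldGU D.σ g) := by
  have h2 : D.σ * D.σ = 1 := RingEquiv.ext fun x => by rw [RingAut.mul_apply, D.eq, D.eq, C.invol]; rfl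
  rw [pow_two, mul_assoc, ← mul_assoc (fieldPSU D.σ), fieldPSU_mul_conjPSU, mul_assoc (conjPSU (fieldGU D.σ g)),
    ← map_mul fieldPSU, h2, map_one, mul_one, map_mul]

theorem even_σ : Even (orderOf D.σ) := by
  haveI : Fact (Nat.Prime 2) := ⟨Nat.prime_two⟩
  rw [orderOf_eq_prime (x := D.σ) (p := 2)
    (RingEquiv.ext fun x => by rw [pow_two, RingAut.mul_apply, D.eq, D.eq, C.invol]; rfl)
    fun h => C.ne_id (RingHom.ext fun x => by rw [← D.eq, h]; rfl)]
  exact even_two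

theorem graph_ne_one' (hn : 3 ≤ n) (g : GU) : conjPSU g * fieldPSU D.σ ≠ (1 : MulAut PSU') := by
  intro h
  obtain ⟨hσ, -⟩ := decomposition_unique C hn (g' := 1) (τ' := 1) (h.trans (by rw [map_one, map_one, one_mul]))
  exact C.ne_id (RingHom.ext fun x => by rw [← D.eq, hσ]; rfl)

theorem exists_rep_psu (hn : 3 ≤ n) {γ : MulAut PSU'} (hγ : Cfsg.IsGraphAutClassPSU γ) (h2 : orderOf γ = 2) :
    ∃ G₀, RepPSU D γ G₀ := by
  classical
  haveI : NeZero n := ⟨by omega⟩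
  obtain ⟨-, δ, φ, τ, hev, hδ, hφ, rfl⟩ := hγ
  obtain ⟨g, rfl⟩ := eq_conjPSU_of_isInnerDiagonal hδ
  obtain rfl := eq_fieldPSU_of_isField hφ
  have hsq : (conjPSU g * fieldPSU τ : MulAut PSU') ^ 2 = 1 := by rw [← h2, pow_orderOf_eq_one]
  have hτ : τ ≠ 1 := fun h => by rw [h, orderOf_one] at hev; exact absurd hev (by decide)
  have hone : conjPSU (g * fieldGU τ g) * fieldPSU (τ * τ) = (1 : MulAut PSU') := by
    rw [← hsq, pow_two, map_mul, map_mul, mul_assoc (conjPSU g) (fieldPSU τ), ← mul_assoc (fieldPSU τ),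
      fieldPSU_mul_conjPSU]
    simp only [mul_assoc]
  obtain ⟨hτ2, hgg⟩ := decomposition_unique C hn (g' := 1) (τ' := 1) (hone.trans (by rw [map_one, map_one, one_mul]))
  rw [map_one] at hgg
  obtain rfl : τ = D.σ := CfsgLib.AutPSL.involution_unique hτ hτ2
    (fun e => C.ne_id (RingHom.ext fun y => by rw [← D.eq, e]; rfl))
    (RingEquiv.ext fun y => by rw [RingAut.mul_apply, D.eq, D.eq, C.invol]; rfl)
  obtain ⟨u, hu⟩ := (conjPSU_eq_iff C hn).1 (hgg.trans (map_one _).symm)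
  rw [mul_one] at hu
  set uF : F := (u.1 : F) with huF
  have hu0 : uF ≠ 0 := u.1.ne_zero
  have hu' : mg g * C.σ.mapMatrix (mg g) = uF • (1 : Matrix (Fin n) (Fin n) F) := by
    rw [← map_σR D, ← scalarGU_val C u, ← hu]; rfl
  have hgt : mg g = uF • (mg g)ᵀ := by
    have h1 : (C.σ.mapMatrix (mg g))ᵀ * mg g = 1 := (mem_GU_iff' C g.1).1 g.2
    have h3 : C.σ.mapMatrix (mg g) * (mg g)ᵀ = 1 := by
      refine mul_eq_one_comm.1 ?_
      rw [← Matrix.transpose_transpose (C.σ.mapMatrix (mg g)), ← Matrix.transpose_mul, h1, Matrix.transpose_one]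
    conv_lhs => rw [← Matrix.mul_one (mg g), ← h3, ← Matrix.mul_assoc, hu', Matrix.smul_mul, Matrix.one_mul]
  have huu : uF * uF = 1 := by
    have h1 : mg g = (uF * uF) • mg g := by
      conv_lhs => rw [hgt]
      rw [← smul_smul]
      congr 1
      conv_lhs => rw [hgt, Matrix.transpose_smul, Matrix.transpose_transpose]
    have h2 : (1 - uF * uF) • mg g = 0 := by rw [sub_smul, one_smul, ← h1, sub_self]
    rcases smul_eq_zero.1 h2 with h3 | h3
    · linear_combination -h3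
    · exact absurd (by rw [h3]; exact Matrix.det_zero) g.1.det_ne_zero
  have hu1 : uF = 1 ∨ uF = -1 := mul_self_eq_one_iff.1 huu
  have hCu : C.σ uF = uF := by rcases hu1 with e | e <;> rw [e] <;> simp
  obtain ⟨μ, hμ0, hμ⟩ := CfsgLib.Hermitian.exists_norm C.ne_id C.invol hu0 hCu
  set g' : GL (Fin n) F := scalarU (Units.mk0 μ hμ0) * g.1 with hg'
  have hg'val : g'.1 = μ • mg g := by
    rw [hg', Units.val_mul, scalarU_val, Matrix.smul_mul, Matrix.one_mul]
    rfl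
  obtain ⟨h, hh⟩ := CfsgLib.AutPSL.exists_coboundary D.σ g' (by
    haveI : Fact (Nat.Prime 2) := ⟨Nat.prime_two⟩
    rw [show orderOf D.σ = 2 from orderOf_eq_prime (by rw [pow_two]; exact hτ2) hτ]
    refine Units.ext ?_
    change (g' * CfsgLib.AutPSL.fieldGL D.σ (g' * CfsgLib.AutPSL.fieldGL D.σ 1)).1 = 1
    rw [map_one, mul_one, Units.val_mul]
    change g'.1 * g'.1.map D.σ = 1
    rw [map_σR D, hg'val, show C.σ.mapMatrix (μ • mg g) = C.σ μ • C.σ.mapMatrix (mg g) from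
        Matrix.ext fun i j => map_mul C.σ μ _,
      Matrix.smul_mul, Matrix.mul_smul, smul_smul, hu', smul_smul]
    rw [show μ * C.σ μ * uF = 1 by rw [mul_comm μ, hμ, huu], one_smul])
  have hgh : g'.1 * C.σ.mapMatrix h.1 = h.1 := by
    have e : g' * CfsgLib.AutPSL.fieldGL D.σ h = h := by rw [hh, inv_mul_cancel_right]
    rw [← map_σR D]
    exact congrArg Units.val e
  have hcob : g'.1 = cob C h := by
    rw [cob]
    conv_rhs => rw [← hgh]
    rw [Matrix.mul_assoc, ← map_mul, ← Units.val_mul, mul_inv_cancel, Units.val_one, map_one, Matrix.mul_one]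
  set G := adj C.σ h.1 * h.1 with hG
  have hadjg : adj C.σ g'.1 * g'.1 = uF • (1 : Matrix (Fin n) (Fin n) F) := by
    rw [hg'val, adj_smul, Matrix.smul_mul, Matrix.mul_smul, smul_smul, hμ, (mem_GU_iff' C g.1).1 g.2]
  have hτG : C.σ.mapMatrix G = uF • G := by
    have e1 : G = uF • C.σ.mapMatrix G := by
      conv_lhs => rw [hG, ← hgh, adj_mul, Matrix.mul_assoc,
        ← Matrix.mul_assoc (adj C.σ g'.1), hadjg, Matrix.smul_mul, Matrix.one_mul, Matrix.mul_smul]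
      congr 1
      rw [hG, map_mul]
      congr 1
    conv_rhs => rw [e1, smul_smul, huu, one_smul]
  have hGh : (C.σ.mapMatrix G)ᵀ = G := by
    change adj C.σ G = G
    rw [hG, adj_mul, adj_adj C.σ C.invol]
  have hGt : Gᵀ = uF • G := by
    conv_rhs => rw [← hGh, hτG, Matrix.transpose_smul, smul_smul, huu, one_smul]
  obtain ⟨ε, hε0, hε⟩ : ∃ ε : F, ε ≠ 0 ∧ C.σ ε = uF * ε := by
    rcases hu1 with e | e
    · exact ⟨1, one_ne_zero, by rw [e, map_one, one_mul]⟩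
    · obtain ⟨c, hc0, hc⟩ := exists_trace_zero C
      exact ⟨c, hc0, by rw [e]; linear_combination hc⟩
  obtain ⟨G₀, hG₀⟩ := exists_fixed_matrix D (Y := ε • G) (Matrix.ext fun i j => by
    change C.σ (ε * G i j) = ε * G i j
    rw [map_mul, hε, show C.σ (G i j) = (uF • G) i j from congrFun (congrFun hτG i) j, Matrix.smul_apply, smul_eq_mul]
    linear_combination (ε * G i j) * huu)
  have hd : G₀.det ≠ 0 := fun h0 => by
    have h1 : (ε • G).det = 0 := by rw [← hG₀, ← RingHom.map_det, h0, map_zero]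
    rw [Matrix.det_smul, hG, Matrix.det_mul, adj, Matrix.det_transpose,
      ← RingHom.mapMatrix_apply, ← RingHom.map_det] at h1
    exact mul_ne_zero (pow_ne_zero _ hε0) (mul_ne_zero ((map_ne_zero C.σ).2 h.det_ne_zero) h.det_ne_zero) h1
  have hm : D.ι.mapMatrix G₀ᵀ = uF • D.ι.mapMatrix G₀ := by
    rw [show D.ι.mapMatrix G₀ᵀ = (D.ι.mapMatrix G₀)ᵀ from rfl, hG₀, Matrix.transpose_smul, hGt, smul_comm]
  refine ⟨G₀, hd, ?_, h, ε⁻¹, μ⁻¹, g, inv_ne_zero hε0, inv_ne_zero hμ0, ?_, ?_, rfl⟩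
  · rcases hu1 with e | e
    · exact Or.inl (Matrix.map_injective D.ι.injective (hm.trans (by rw [e, one_smul]; rfl)))
    · refine Or.inr (Matrix.map_injective D.ι.injective (hm.trans ?_))
      rw [e, neg_one_smul]
      exact (map_neg D.ι.mapMatrix G₀).symm
  · rw [← hG, hG₀, smul_smul, inv_mul_cancel₀ hε0, one_smul]
  · rw [← hcob, hg'val, smul_smul, inv_mul_cancel₀ hμ0, one_smul]

theorem exists_inv_psu (hn : 3 ≤ n) {G₀ : Matrix (Fin n) (Fin n) F₀} (hG : G₀.det ≠ 0)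
    (hGs : G₀ᵀ = G₀ ∨ G₀ᵀ = -G₀) :
    ∃ γ : MulAut PSU', (Cfsg.IsGraphAutClassPSU γ ∧ orderOf γ = 2) ∧ RepPSU D γ G₀ := by
  classical
  obtain ⟨u, ε, hu1, hε0, hε, hut⟩ : ∃ (u : F₀) (ε : F), (u = 1 ∨ u = -1) ∧ ε ≠ 0 ∧
      C.σ ε = D.ι u * ε ∧ G₀ᵀ = u • G₀ := by
    rcases hGs with e | e
    · exact ⟨1, 1, Or.inl rfl, one_ne_zero, by rw [map_one, map_one, one_mul], by rw [one_smul, e]⟩
    · obtain ⟨c, hc0, hc⟩ := exists_trace_zero C
      exact ⟨-1, c, Or.inr rfl, hc0, by rw [map_neg, map_one]; linear_combination hc, by rw [neg_one_smul, e]⟩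
  have huu : u * u = 1 := by rcases hu1 with e | e <;> rw [e] <;> ring
  set H := ε • D.ι.mapMatrix G₀ with hH
  have hHh : adj C.σ H = H := by
    rw [hH, adj_smul, adj_ι, hε, hut,
      show D.ι.mapMatrix (u • G₀) = D.ι u • D.ι.mapMatrix G₀ from Matrix.ext fun i j => map_mul D.ι u _,
      smul_smul, mul_comm (D.ι u) ε, mul_assoc, ← map_mul, huu, map_one, mul_one]
  have hHd : H.det ≠ 0 := by
    rw [hH, Matrix.det_smul, ← RingHom.map_det]
    exact mul_ne_zero (pow_ne_zero _ hε0) ((map_ne_zero D.ι).2 hG)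
  obtain ⟨P, hP⟩ := exists_congr C.σ C.invol C.ne_id n H hHh hHd
  have hPd : P.det ≠ 0 := fun h0 => hHd (by rw [← hP, Matrix.det_mul, h0, mul_zero])
  set h := GeneralLinearGroup.mkOfDetNeZero P hPd
  have hu0 : D.ι u ≠ 0 := (map_ne_zero D.ι).2 (by rcases hu1 with e | e <;> rw [e] <;> simp)
  obtain ⟨ν, hν0, hν⟩ := CfsgLib.Hermitian.exists_norm C.ne_id C.invol hu0 (D_fix D u)
  set hi := ((h⁻¹ : GL (Fin n) F) : Matrix (Fin n) (Fin n) F) with hhi
  have hinv : h.1 * hi = 1 := by rw [hhi, ← Units.val_mul, mul_inv_cancel, Units.val_one]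
  have hσH : C.σ.mapMatrix H = D.ι u • H := by
    rw [hH, show C.σ.mapMatrix (ε • D.ι.mapMatrix G₀) = C.σ ε • C.σ.mapMatrix (D.ι.mapMatrix G₀) from
      Matrix.ext fun i j => map_mul C.σ ε _, σ_map, hε, smul_smul]
  have hcc : adj C.σ (cob C h) * cob C h = D.ι u • (1 : Matrix (Fin n) (Fin n) F) := by
    rw [cob, ← hhi, adj_mul, show adj C.σ (C.σ.mapMatrix hi) * adj C.σ h.1 * (h.1 * C.σ.mapMatrix hi) =
      adj C.σ (C.σ.mapMatrix hi) * (adj C.σ h.1 * h.1) * C.σ.mapMatrix hi by simp only [Matrix.mul_assoc],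
      show adj C.σ h.1 * h.1 = H from hP]
    have e : H = D.ι u • C.σ.mapMatrix H := by rw [hσH, smul_smul, ← map_mul, huu, map_one, one_smul]
    rw [e, Matrix.mul_smul, Matrix.smul_mul]
    congr 1
    rw [show C.σ.mapMatrix H = adj C.σ (C.σ.mapMatrix h.1) * C.σ.mapMatrix h.1 by
        rw [show h.1 = P from rfl, ← hP, map_mul]; rfl,
      ← Matrix.mul_assoc, ← adj_mul, Matrix.mul_assoc, ← map_mul, hinv, map_one, adj_one, Matrix.mul_one]
  have hgu : adj C.σ (ν • cob C h) * (ν • cob C h) = 1 := by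
    rw [adj_smul, Matrix.smul_mul, Matrix.mul_smul, smul_smul, hcc, smul_smul, hν, ← map_mul, huu, map_one, one_smul]
  have hgd : (ν • cob C h).det ≠ 0 := fun h0 => one_ne_zero (α := F) (by
    rw [← Matrix.det_one (n := Fin n), ← hgu, Matrix.det_mul, h0, mul_zero])
  let g : GU := ⟨GeneralLinearGroup.mkOfDetNeZero _ hgd, (mem_GU_iff' C _).2 hgu⟩
  have hgg : mg g * C.σ.mapMatrix (mg g) = D.ι u • (1 : Matrix (Fin n) (Fin n) F) := by
    change (ν • cob C h) * C.σ.mapMatrix (ν • cob C h) = _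
    rw [show C.σ.mapMatrix (ν • cob C h) = C.σ ν • C.σ.mapMatrix (cob C h) from Matrix.ext fun i j => map_mul C.σ ν _,
      Matrix.smul_mul, Matrix.mul_smul, smul_smul, mul_comm ν, hν]
    congr 1
    have e2 : C.σ.mapMatrix (C.σ.mapMatrix hi) = hi := Matrix.ext fun i j => C.invol (hi i j)
    rw [cob, ← hhi, map_mul, e2, Matrix.mul_assoc h.1, ← Matrix.mul_assoc (C.σ.mapMatrix hi), ← map_mul,
      show hi * h.1 = 1 by rw [hhi, ← Units.val_mul, inv_mul_cancel, Units.val_one], map_one, Matrix.one_mul, hinv]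
  refine ⟨conjPSU g * fieldPSU D.σ, ⟨⟨hn, _, _, D.σ, even_σ D, isInnerDiagonalAutPSU g, isFieldAutPSUOf D.σ, rfl⟩, ?_⟩,
    hG, hGs, h, ε, ν, g, hε0, hν0, hP, rfl, rfl⟩
  haveI : Fact (Nat.Prime 2) := ⟨Nat.prime_two⟩
  refine orderOf_eq_prime ?_ (graph_ne_one' D hn g)
  rw [sq_graph]
  refine conjPSU_eq_one_of_scalar (a := D.ι u) ?_
  rw [GU_coe_mul, fieldGU_val, map_σR D]
  exact hgg

theorem commute_psu_iff (hn : 3 ≤ n) (g x : GU) :
    conjPSU x * (conjPSU g * fieldPSU D.σ) = conjPSU g * fieldPSU D.σ * (conjPSU x : MulAut PSU') ↔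
      ∃ w : F, w ≠ 0 ∧ mg g * C.σ.mapMatrix (mg x) = w • (mg x * mg g) := by
  rw [mul_assoc (conjPSU g), fieldPSU_mul_conjPSU, ← mul_assoc, ← mul_assoc, ← map_mul, ← map_mul, mul_left_inj]
  constructor
  · intro h
    obtain ⟨u, hu⟩ := (conjPSU_eq_iff C hn).1 h.symm
    refine ⟨(u.1 : F), u.1.ne_zero, ?_⟩
    have h1 : mg (g * fieldGU D.σ x) = mg (scalarGU C n u * (x * g)) := congrArg (fun y : GU => mg y) hu
    rw [GU_coe_mul, GU_coe_mul, fieldGU_val, scalarGU_val, Matrix.smul_mul, Matrix.one_mul, GU_coe_mul,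
      map_σR D] at h1
    exact h1
  · rintro ⟨w, -, hw⟩
    have hi : mg ((x * g)⁻¹ * (g * fieldGU D.σ x)) = w • (1 : Matrix (Fin n) (Fin n) F) := by
      rw [GU_coe_mul, GU_coe_mul g, fieldGU_val, map_σR D, hw, Matrix.mul_smul, ← GU_coe_mul, ← GU_coe_mul,
        inv_mul_cancel]
      rfl
    have := conjPSU_eq_one_of_scalar hi
    rw [map_mul, map_inv, inv_mul_eq_one] at this
    exact this

theorem cob_twist (C : Conj F q) (h : GL (Fin n) F) (X : Matrix (Fin n) (Fin n) F) :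
    cob C h * C.σ.mapMatrix X =
      h.1 * C.σ.mapMatrix ((h⁻¹ : GL (Fin n) F).1 * X * h.1) * C.σ.mapMatrix (h⁻¹ : GL (Fin n) F).1 := by
  simp only [cob, Matrix.mul_assoc, ← map_mul]
  rw [← Units.val_mul h, mul_inv_cancel, Units.val_one, Matrix.mul_one]

theorem cob_left (C : Conj F q) (h : GL (Fin n) F) (X : Matrix (Fin n) (Fin n) F) :
    X * cob C h = h.1 * ((h⁻¹ : GL (Fin n) F).1 * X * h.1) * C.σ.mapMatrix (h⁻¹ : GL (Fin n) F).1 := by
  simp only [cob, ← Matrix.mul_assoc]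
  rw [← Units.val_mul h, mul_inv_cancel, Units.val_one, Matrix.one_mul]

theorem GU_val_ne_zero (hn : 3 ≤ n) (x : GU) : mg x ≠ 0 := fun h0 => x.1.det_ne_zero (by
  haveI : Nonempty (Fin n) := ⟨⟨0, by omega⟩⟩
  rw [h0]; exact Matrix.det_zero)

/-- The commuting elements correspond to the similitudes over the fixed field. -/
theorem exists_descend_commute (hn : 3 ≤ n) {G₀ : Matrix (Fin n) (Fin n) F₀} {h : GL (Fin n) F} {ε ν : F} {g : GU}
    (hε : ε ≠ 0) (hν : ν ≠ 0) (hH : adj C.σ h.1 * h.1 = ε • D.ι.mapMatrix G₀) (hg : mg g = ν • cob C h) {x : GU}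
    (hx : conjPSU x * (conjPSU g * fieldPSU D.σ) = conjPSU g * fieldPSU D.σ * (conjPSU x : MulAut PSU')) :
    ∃ (a : GL (Fin n) F₀) (c : F₀ˣ) (v : F), v ≠ 0 ∧ a.1ᵀ * G₀ * a.1 = (c : F₀) • G₀ ∧ C.σ v * v = D.ι c ∧
      mg x = v⁻¹ • (h.1 * D.ι.mapMatrix a.1 * (h⁻¹ : GL (Fin n) F).1) := by
  obtain ⟨w, hw0, hw⟩ := (commute_psu_iff D hn g x).1 hx
  rw [hg, Matrix.smul_mul, Matrix.mul_smul, smul_comm w ν] at hw
  have hw' : cob C h * C.σ.mapMatrix (mg x) = w • (mg x * cob C h) := smul_right_injective _ hν hw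
  set hi := ((h⁻¹ : GL (Fin n) F) : Matrix (Fin n) (Fin n) F) with hhi
  have h1 : h.1 * hi = 1 := by rw [hhi, ← Units.val_mul, mul_inv_cancel, Units.val_one]
  have h2 : hi * h.1 = 1 := by rw [hhi, ← Units.val_mul, inv_mul_cancel, Units.val_one]
  set Y := hi * mg x * h.1 with hY
  rw [cob_twist, cob_left, ← hhi, ← hY] at hw'
  have hYσ : C.σ.mapMatrix Y = w • Y := by
    have h3 := congrArg (fun M => hi * M * C.σ.mapMatrix h.1) hw'
    simp only [Matrix.mul_assoc, Matrix.mul_smul, Matrix.smul_mul, ← map_mul, h2, map_one, Matrix.mul_one] at h3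
    simp only [← Matrix.mul_assoc, h2, Matrix.one_mul] at h3
    exact h3
  have hxY : mg x = h.1 * Y * hi := by
    rw [hY]
    simp only [Matrix.mul_assoc]
    rw [h1, Matrix.mul_one, ← Matrix.mul_assoc, h1, Matrix.one_mul]
  have hY0 : Y ≠ 0 := fun h0 => GU_val_ne_zero hn x (by rw [hxY, h0, Matrix.mul_zero, Matrix.zero_mul])
  obtain ⟨v, Y₀, hv, hY₀⟩ := exists_descend_matrix D hY0 hYσ
  have hxd : mg x = v⁻¹ • (h.1 * D.ι.mapMatrix Y₀ * hi) := by
    rw [hY₀, Matrix.mul_smul, Matrix.smul_mul, smul_smul, inv_mul_cancel₀ hv, one_smul]; exact hxY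
  have hd : Y₀.det ≠ 0 := fun h0 => x.1.det_ne_zero (by
    rw [hxd, Matrix.det_smul, Matrix.det_mul, Matrix.det_mul, ← RingHom.map_det, h0, map_zero]; ring)
  obtain ⟨c, hc⟩ := exists_of_fix D (c := C.σ v * v) (by rw [map_mul, C.invol, mul_comm])
  have hc0 : c ≠ 0 := fun h0 => mul_ne_zero ((map_ne_zero C.σ).2 hv) hv (by rw [← hc, h0, map_zero])
  refine ⟨GeneralLinearGroup.mkOfDetNeZero Y₀ hd, Units.mk0 c hc0, v, hv, ?_, hc.symm, hxd⟩
  have hYH : adj C.σ Y * (adj C.σ h.1 * h.1) * Y = adj C.σ h.1 * h.1 := by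
    have hu : adj C.σ (mg x) * mg x = 1 := (mem_GU_iff' C x.1).1 x.2
    rw [show adj C.σ Y * (adj C.σ h.1 * h.1) * Y = adj C.σ (h.1 * Y) * (h.1 * Y) by
        simp only [adj_mul, Matrix.mul_assoc],
      show h.1 * Y = mg x * h.1 by rw [hY, ← Matrix.mul_assoc, ← Matrix.mul_assoc, h1, Matrix.one_mul],
      adj_mul, Matrix.mul_assoc, ← Matrix.mul_assoc (adj C.σ (mg x)), hu, Matrix.one_mul]
  rw [hH, Matrix.mul_smul, Matrix.smul_mul] at hYH
  have hYH' := smul_right_injective _ hε hYH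
  refine Matrix.map_injective D.ι.injective ?_
  change D.ι.mapMatrix (Y₀ᵀ * G₀ * Y₀) = D.ι.mapMatrix (c • G₀)
  rw [map_mul, map_mul, ← adj_ι, hY₀, adj_smul, Matrix.smul_mul, Matrix.mul_smul, Matrix.smul_mul, smul_smul,
    mul_comm v, hYH', ← hc]
  exact Matrix.ext fun i j => (map_mul D.ι c _).symm

theorem exists_lift_commute (hn : 3 ≤ n) {G₀ : Matrix (Fin n) (Fin n) F₀} {h : GL (Fin n) F} {ε ν : F} {g : GU}
    (hH : adj C.σ h.1 * h.1 = ε • D.ι.mapMatrix G₀) (hg : mg g = ν • cob C h) (a : GL (Fin n) F₀) {c : F₀ˣ}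
    (hac : a.1ᵀ * G₀ * a.1 = (c : F₀) • G₀) {v : F} (hv : v ≠ 0) (hcv : C.σ v * v = D.ι c) :
    ∃ x : GU, conjPSU x * (conjPSU g * fieldPSU D.σ) = conjPSU g * fieldPSU D.σ * (conjPSU x : MulAut PSU') ∧
      mg x = v⁻¹ • (h.1 * D.ι.mapMatrix a.1 * (h⁻¹ : GL (Fin n) F).1) := by
  set hi := ((h⁻¹ : GL (Fin n) F) : Matrix (Fin n) (Fin n) F) with hhi
  have h1 : h.1 * hi = 1 := by rw [hhi, ← Units.val_mul, mul_inv_cancel, Units.val_one]
  have h2 : hi * h.1 = 1 := by rw [hhi, ← Units.val_mul, inv_mul_cancel, Units.val_one]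
  set M := v⁻¹ • (h.1 * D.ι.mapMatrix a.1 * hi) with hM
  have hu : adj C.σ M * M = 1 := by
    rw [hM, adj_smul, Matrix.smul_mul, Matrix.mul_smul, smul_smul, adj_mul, adj_mul, adj_ι,
      show adj C.σ hi * (D.ι.mapMatrix a.1ᵀ * adj C.σ h.1) * (h.1 * D.ι.mapMatrix a.1 * hi) =
        adj C.σ hi * (D.ι.mapMatrix a.1ᵀ * (adj C.σ h.1 * h.1) * D.ι.mapMatrix a.1) * hi by
        simp only [Matrix.mul_assoc],
      hH, Matrix.mul_smul, Matrix.smul_mul, ← map_mul, ← map_mul, hac,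
      show D.ι.mapMatrix ((c : F₀) • G₀) = D.ι c • D.ι.mapMatrix G₀ from Matrix.ext fun i j => map_mul D.ι _ _,
      smul_comm ε, ← hH, Matrix.mul_smul, Matrix.smul_mul, smul_smul, ← hcv, map_inv₀, ← mul_inv,
      inv_mul_cancel₀ (mul_ne_zero ((map_ne_zero C.σ).2 hv) hv), one_smul,
      show adj C.σ hi * (adj C.σ h.1 * h.1) * hi = adj C.σ (h.1 * hi) * (h.1 * hi) by
        simp only [adj_mul, Matrix.mul_assoc],
      h1, adj_one, Matrix.one_mul]
  have hd : M.det ≠ 0 := fun h0 => one_ne_zero (α := F) (by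
    rw [← Matrix.det_one (n := Fin n), ← hu, Matrix.det_mul, h0, mul_zero])
  refine ⟨⟨GeneralLinearGroup.mkOfDetNeZero M hd, (mem_GU_iff' C _).2 hu⟩,
    (commute_psu_iff D hn g _).2 ⟨v / C.σ v, div_ne_zero hv ((map_ne_zero C.σ).2 hv), ?_⟩, rfl⟩
  rw [hg]
  change ν • cob C h * C.σ.mapMatrix M = _ • (M * (ν • cob C h))
  rw [Matrix.smul_mul, Matrix.mul_smul, smul_comm _ ν]
  congr 1
  rw [cob_twist, cob_left, ← hhi,
    show hi * M * h.1 = v⁻¹ • D.ι.mapMatrix a.1 by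
      rw [hM, Matrix.mul_smul, Matrix.smul_mul]
      congr 1
      simp only [Matrix.mul_assoc]
      rw [h2, Matrix.mul_one, ← Matrix.mul_assoc, h2, Matrix.one_mul],
    show C.σ.mapMatrix (v⁻¹ • D.ι.mapMatrix a.1) = C.σ v⁻¹ • D.ι.mapMatrix a.1 from Matrix.ext fun i j => by
      change C.σ (v⁻¹ * D.ι (a.1 i j)) = C.σ v⁻¹ * D.ι (a.1 i j)
      rw [map_mul, D_fix]]
  rw [Matrix.mul_smul, Matrix.smul_mul, Matrix.mul_smul, Matrix.smul_mul, smul_smul, map_inv₀]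
  congr 1
  field_simp

theorem exists_norm_fixed (c : F₀ˣ) : ∃ v : F, v ≠ 0 ∧ C.σ v * v = D.ι c :=
  CfsgLib.Hermitian.exists_norm C.ne_id C.invol ((map_ne_zero D.ι).2 c.ne_zero) (D_fix D _)

/-- The centraliser. -/
theorem centralizer_psu (hn : 3 ≤ n) {γ : MulAut PSU'} {G₀ : Matrix (Fin n) (Fin n) F₀} (hr : RepPSU D γ G₀) :
    Nonempty (↥((conjPSU (F := F) (n := n) (q := q)).range ⊓ Subgroup.centralizer {γ}) ≃*
      Cfsg.projQuot (Sim G₀)) := by
  classical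
  obtain ⟨hGd, -, h, ε, ν, g, hε, hν, hH, hg, rfl⟩ := hr
  haveI : Nonempty (Fin n) := ⟨⟨0, by omega⟩⟩
  set hi := ((h⁻¹ : GL (Fin n) F) : Matrix (Fin n) (Fin n) F) with hhi
  have h2 : hi * h.1 = 1 := by rw [hhi, ← Units.val_mul, inv_mul_cancel, Units.val_one]
  have hlift : ∀ a : Sim G₀, ∃ (x : GU) (t : F),
      conjPSU x * (conjPSU g * fieldPSU D.σ) = conjPSU g * fieldPSU D.σ * (conjPSU x : MulAut PSU') ∧
      mg x = t • (h.1 * D.ι.mapMatrix a.1.1 * hi) := by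
    rintro ⟨a, c, hc⟩
    obtain ⟨v, hv, hcv⟩ := exists_norm_fixed D c
    obtain ⟨x, hx1, hx2⟩ := exists_lift_commute D hn hH hg a hc hv hcv
    exact ⟨x, v⁻¹, hx1, hx2⟩
  choose X t hX1 hX2 using hlift
  have hwd : ∀ (y y' : GU) (A : Matrix (Fin n) (Fin n) F) (s s' : F), mg y = s • A → mg y' = s' • A →
      (conjPSU y : MulAut PSU') = conjPSU y' := by
    intro y y' A s s' e e'
    have hs' : s' ≠ 0 := fun h0 => GU_val_ne_zero hn y' (by rw [e', h0, zero_smul])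
    have hi' : mg (y'⁻¹ * y) = (s / s') • (1 : Matrix (Fin n) (Fin n) F) := by
      rw [GU_coe_mul, e, show s • A = (s / s') • mg y' by rw [e', smul_smul, div_mul_cancel₀ _ hs'],
        Matrix.mul_smul, ← GU_coe_mul, inv_mul_cancel]
      rfl
    have := conjPSU_eq_one_of_scalar hi'
    rw [map_mul, map_inv, inv_mul_eq_one] at this
    exact this.symm
  let ψ : Sim G₀ →* ↥((conjPSU (F := F) (n := n) (q := q)).range ⊓
      Subgroup.centralizer {conjPSU g * fieldPSU D.σ}) :=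
    MonoidHom.mk' (fun a => ⟨conjPSU (X a), ⟨_, rfl⟩, Subgroup.mem_centralizer_singleton_iff.mpr (hX1 a)⟩)
      fun a b => Subtype.ext (by
        change conjPSU (X (a * b)) = conjPSU (X a) * conjPSU (X b)
        rw [← map_mul]
        refine hwd _ _ _ _ (t a * t b) (hX2 (a * b)) ?_
        rw [GU_coe_mul, hX2, hX2, Matrix.smul_mul, Matrix.mul_smul, smul_smul]
        congr 1
        rw [Subgroup.coe_mul, Units.val_mul, map_mul,
          show h.1 * D.ι.mapMatrix a.1.1 * hi * (h.1 * D.ι.mapMatrix b.1.1 * hi) =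
            h.1 * D.ι.mapMatrix a.1.1 * (hi * h.1) * D.ι.mapMatrix b.1.1 * hi by simp only [Matrix.mul_assoc],
          h2, Matrix.mul_one]
        simp only [Matrix.mul_assoc])
  have hs : Function.Surjective ψ := by
    rintro ⟨_, ⟨x, rfl⟩, hx⟩
    obtain ⟨a, c, v, -, hac, -, hxv⟩ :=
      exists_descend_commute D hn hε hν hH hg (Subgroup.mem_centralizer_singleton_iff.mp hx)
    exact ⟨⟨a, c, hac⟩, Subtype.ext (hwd _ _ _ _ _ (hX2 ⟨a, c, hac⟩) hxv)⟩
  have hk : ψ.ker = (Cfsg.Geo.scalars (Fin n) F₀).subgroupOf _ := by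
    ext a
    rw [MonoidHom.mem_ker, Subtype.ext_iff, Subgroup.mem_subgroupOf, Cfsg.Geo.mem_scalars_iff]
    change conjPSU (X a) = 1 ↔ _
    rw [conjPSU_eq_one_iff C hn]
    constructor
    · rintro ⟨s, hsx⟩
      rw [hX2] at hsx
      have ht : t a ≠ 0 := fun h0 => GU_val_ne_zero hn (X a) (by rw [hX2, h0, zero_smul])
      have e : D.ι.mapMatrix a.1.1 = ((t a)⁻¹ * s) • (1 : Matrix (Fin n) (Fin n) F) := by
        have h3 := congrArg (fun M => (t a)⁻¹ • (hi * M * h.1)) hsx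
        simp only [Matrix.mul_smul, Matrix.smul_mul, smul_smul, Matrix.mul_one, h2] at h3
        rw [inv_mul_cancel₀ ht, one_smul,
          show hi * (h.1 * D.ι.mapMatrix a.1.1 * hi) * h.1 = (hi * h.1) * D.ι.mapMatrix a.1.1 * (hi * h.1) by
            simp only [Matrix.mul_assoc], h2, Matrix.one_mul, Matrix.mul_one] at h3
        exact h3
      let i₀ : Fin n := ⟨0, by omega⟩
      have e0 : D.ι (a.1.1 i₀ i₀) = (t a)⁻¹ * s := by simpa using congrFun (congrFun e i₀) i₀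
      have hdiag : a.1.1 = a.1.1 i₀ i₀ • (1 : Matrix (Fin n) (Fin n) F₀) := Matrix.ext fun i j => D.ι.injective (by
        have := congrFun (congrFun e i) j
        simp only [RingHom.mapMatrix_apply, Matrix.map_apply] at this
        rw [this, Matrix.smul_apply, Matrix.smul_apply, smul_eq_mul, smul_eq_mul, map_mul, e0, Matrix.one_apply,
          Matrix.one_apply]
        split_ifs <;> simp)
      refine ⟨Units.mk0 (a.1.1 i₀ i₀) fun h0 => a.1.det_ne_zero ?_, hdiag⟩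
      rw [hdiag, h0, zero_smul]; exact Matrix.det_zero
    · rintro ⟨c, hc⟩
      refine ⟨t a * D.ι c, ?_⟩
      rw [hX2, hc, show D.ι.mapMatrix ((c : F₀) • (1 : Matrix (Fin n) (Fin n) F₀)) = D.ι c • (1 : Matrix (Fin n) (Fin n) F) by
        rw [← map_one D.ι.mapMatrix]; exact Matrix.ext fun i j => map_mul D.ι _ _,
        Matrix.mul_smul, Matrix.mul_one, Matrix.smul_mul, hhi, ← Units.val_mul, mul_inv_cancel, Units.val_one,
        smul_smul]
  exact ⟨((QuotientGroup.quotientMulEquivOfEq hk.symm).trans (QuotientGroup.quotientKerEquivOfSurjective ψ hs)).symm⟩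

theorem conj_psu (k g : GU) :
    conjPSU k * (conjPSU g * fieldPSU D.σ) * (conjPSU k : MulAut PSU')⁻¹ =
      conjPSU (k * g * fieldGU D.σ k⁻¹) * fieldPSU D.σ := by
  rw [← map_inv, mul_assoc (conjPSU k) (conjPSU g * fieldPSU D.σ), mul_assoc (conjPSU g), fieldPSU_mul_conjPSU,
    map_mul, map_mul]
  simp only [mul_assoc]

theorem adj_triple (A B Z : Matrix (Fin n) (Fin n) F) :
    adj C.σ (A * B * Z) * (A * B * Z) = adj C.σ Z * (adj C.σ B * (adj C.σ A * A) * B) * Z := by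
  simp only [adj_mul, Matrix.mul_assoc]

theorem conj_iff_psu (hn : 3 ≤ n) {γ γ' : MulAut PSU'} {G G' : Matrix (Fin n) (Fin n) F₀} (hr : RepPSU D γ G)
    (hr' : RepPSU D γ' G') :
    Cfsg.IsConjUnder (conjPSU (F := F) (n := n) (q := q)).range γ γ' ↔ Cong G G' := by
  classical
  haveI : Nonempty (Fin n) := ⟨⟨0, by omega⟩⟩
  obtain ⟨hGd, -, h, ε, ν, g, hε, hν, hH, hg, rfl⟩ := hr
  obtain ⟨hGd', -, h', ε', ν', g', hε', hν', hH', hg', rfl⟩ := hr'
  set hi := ((h⁻¹ : GL (Fin n) F) : Matrix (Fin n) (Fin n) F) with hhi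
  set hi' := ((h'⁻¹ : GL (Fin n) F) : Matrix (Fin n) (Fin n) F) with hhi'
  have h1 : h.1 * hi = 1 := by rw [hhi, ← Units.val_mul, mul_inv_cancel, Units.val_one]
  have h2 : hi * h.1 = 1 := by rw [hhi, ← Units.val_mul, inv_mul_cancel, Units.val_one]
  have h1' : h'.1 * hi' = 1 := by rw [hhi', ← Units.val_mul, mul_inv_cancel, Units.val_one]
  have h2' : hi' * h'.1 = 1 := by rw [hhi', ← Units.val_mul, inv_mul_cancel, Units.val_one]
  have key : ∀ k : GU, mg (k * g * fieldGU D.σ k⁻¹) * C.σ.mapMatrix (mg k) = mg k * mg g := fun k => by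
    rw [← map_σR D, ← fieldGU_val, ← GU_coe_mul, ← GU_coe_mul, map_inv, inv_mul_cancel_right]
  constructor
  · rintro ⟨_, ⟨k, rfl⟩, e⟩
    rw [conj_psu, mul_left_inj] at e
    obtain ⟨u, hu⟩ := (conjPSU_eq_iff C hn).1 e
    have hu' : mg g' * C.σ.mapMatrix (mg k) = (u.1 : F) • (mg k * mg g) := by
      rw [hu, GU_coe_mul, scalarGU_val, Matrix.smul_mul, Matrix.one_mul, Matrix.smul_mul, key]
    set Z := hi' * mg k * h.1 with hZ
    rw [hg, hg', Matrix.smul_mul, Matrix.mul_smul, smul_smul] at hu'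
    have hZσ : C.σ.mapMatrix Z = ((u.1 : F) * ν / ν') • Z := by
      have h3 : cob C h' * C.σ.mapMatrix (mg k) = ((u.1 : F) * ν / ν') • (mg k * cob C h) := by
        rw [← smul_right_injective _ hν' |>.eq_iff]
        change ν' • _ = ν' • _
        rw [hu', smul_smul, mul_div_cancel₀ _ hν']
      have h4 := congrArg (fun M => hi' * M * C.σ.mapMatrix h.1) h3
      simp only [Matrix.mul_smul, Matrix.smul_mul] at h4
      rw [show hi' * (mg k * cob C h) * C.σ.mapMatrix h.1 = hi' * mg k * (cob C h * C.σ.mapMatrix h.1) by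
          simp only [Matrix.mul_assoc], cob_mul, ← hZ] at h4
      rw [show hi' * (cob C h' * C.σ.mapMatrix (mg k)) * C.σ.mapMatrix h.1 =
          (hi' * h'.1) * C.σ.mapMatrix (hi' * mg k * h.1) by
          simp only [cob, ← hhi', map_mul, Matrix.mul_assoc], h2', Matrix.one_mul, ← hZ] at h4
      exact h4
    have hZ0 : Z ≠ 0 := fun h0 => GU_val_ne_zero hn k (by
      have : h'.1 * Z * hi = mg k := by
        rw [hZ]
        simp only [Matrix.mul_assoc]
        rw [h1, Matrix.mul_one, ← Matrix.mul_assoc, h1', Matrix.one_mul]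
      rw [← this, h0, Matrix.mul_zero, Matrix.zero_mul])
    obtain ⟨v, K₀, hv, hK₀⟩ := exists_descend_matrix D hZ0 hZσ
    have hku : adj C.σ (mg k) * mg k = 1 := (mem_GU_iff' C k.1).1 k.2
    have e1 : adj C.σ Z * (ε' • D.ι.mapMatrix G') * Z = ε • D.ι.mapMatrix G := by
      have hhZ : h'.1 * Z = mg k * h.1 := by
        rw [hZ, ← Matrix.mul_assoc, ← Matrix.mul_assoc, h1', Matrix.one_mul]
      rw [← hH', ← hH, show adj C.σ Z * (adj C.σ h'.1 * h'.1) * Z = adj C.σ (h'.1 * Z) * (h'.1 * Z) by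
        simp only [adj_mul, Matrix.mul_assoc], hhZ, adj_mul, Matrix.mul_assoc, ← Matrix.mul_assoc (adj C.σ (mg k)),
        hku, Matrix.one_mul]
    have e2 : D.ι.mapMatrix (K₀ᵀ * G' * K₀) = (C.σ v * v * ε / ε') • D.ι.mapMatrix G := by
      rw [map_mul, map_mul, ← adj_ι, hK₀, adj_smul, Matrix.smul_mul, Matrix.mul_smul, Matrix.smul_mul, smul_smul,
        mul_comm v, div_eq_mul_inv, mul_assoc _ ε, ← smul_smul _ (ε * ε'⁻¹), mul_comm ε, ← smul_smul _ ε, ← e1,
        Matrix.mul_smul, Matrix.smul_mul, smul_smul ε'⁻¹, inv_mul_cancel₀ hε', one_smul]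
    obtain ⟨i, j, hij⟩ : ∃ i j, G i j ≠ 0 := by
      by_contra hno
      push Not at hno
      exact hGd (by rw [Matrix.ext hno]; exact Matrix.det_zero)
    obtain ⟨c, hc⟩ : ∃ c, D.ι c = C.σ v * v * ε / ε' := by
      refine ⟨(K₀ᵀ * G' * K₀) i j / G i j, ?_⟩
      have h3 := congrFun (congrFun e2 i) j
      simp only [RingHom.mapMatrix_apply, Matrix.map_apply, Matrix.smul_apply, smul_eq_mul] at h3
      rw [map_div₀, h3, mul_div_assoc, div_self ((map_ne_zero D.ι).2 hij), mul_one]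
    have hc0 : c ≠ 0 := fun h0 => by
      rw [h0, map_zero] at hc
      exact mul_ne_zero (mul_ne_zero (mul_ne_zero ((map_ne_zero C.σ).2 hv) hv) hε) (inv_ne_zero hε')
        (by rw [← div_eq_mul_inv]; exact hc.symm)
    have e3 : K₀ᵀ * G' * K₀ = c • G := Matrix.map_injective D.ι.injective (by
      change D.ι.mapMatrix _ = D.ι.mapMatrix _
      rw [e2, ← hc]
      exact Matrix.ext fun i j => (map_mul D.ι _ _).symm)
    have hKd : K₀.det ≠ 0 := fun h0 => by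
      have h3 := congrArg Matrix.det e3
      rw [Matrix.det_mul, h0, mul_zero, Matrix.det_smul] at h3
      exact mul_ne_zero (pow_ne_zero _ hc0) hGd h3.symm
    exact Cong.symm ⟨K₀, K₀⁻¹, Matrix.mul_nonsing_inv _ (isUnit_iff_ne_zero.2 hKd),
      Matrix.nonsing_inv_mul _ (isUnit_iff_ne_zero.2 hKd), c, hc0, e3⟩
  · intro hc
    obtain ⟨P, P', hP1, hP2, c, hc, e⟩ := hc.symm
    set Z := D.ι.mapMatrix P with hZ
    have hHh : ∀ A : Matrix (Fin n) (Fin n) F, adj C.σ (adj C.σ A * A) = adj C.σ A * A := fun A => by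
      rw [adj_mul, adj_adj C.σ C.invol]
    have e1 : adj C.σ Z * (adj C.σ h'.1 * h'.1) * Z = (ε' * D.ι c / ε) • (adj C.σ h.1 * h.1) := by
      rw [hH', hH, hZ, adj_ι, Matrix.mul_smul, Matrix.smul_mul, ← map_mul, ← map_mul, e,
        show D.ι.mapMatrix (c • G) = D.ι c • D.ι.mapMatrix G from Matrix.ext fun i j => map_mul D.ι _ _,
        smul_smul, smul_smul, div_mul_cancel₀ _ hε]
    set s := ε' * D.ι c / ε with hs
    have hs0 : s ≠ 0 := div_ne_zero (mul_ne_zero hε' ((map_ne_zero D.ι).2 hc)) hε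
    have hsσ : C.σ s = s := by
      obtain ⟨i, j, hij⟩ : ∃ i j, (adj C.σ h.1 * h.1) i j ≠ 0 := by
        by_contra hno
        push Not at hno
        have h0 : (adj C.σ h.1 * h.1).det = 0 := by rw [Matrix.ext hno]; exact Matrix.det_zero
        rw [hH, Matrix.det_smul, ← RingHom.map_det] at h0
        exact mul_ne_zero (pow_ne_zero _ hε) ((map_ne_zero D.ι).2 hGd) h0
      have h3 : adj C.σ (adj C.σ Z * (adj C.σ h'.1 * h'.1) * Z) = adj C.σ Z * (adj C.σ h'.1 * h'.1) * Z := by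
        rw [adj_mul, adj_mul (A := adj C.σ Z), adj_adj C.σ C.invol, hHh, ← Matrix.mul_assoc]
      rw [e1, adj_smul, hHh] at h3
      exact mul_right_cancel₀ hij (congrFun (congrFun h3 i) j)
    obtain ⟨w, hw0, hw⟩ := CfsgLib.Hermitian.exists_norm C.ne_id C.invol hs0 hsσ
    set M := w⁻¹ • (h'.1 * Z * hi) with hM
    have hu : adj C.σ M * M = 1 := by
      rw [hM, adj_smul, Matrix.smul_mul, Matrix.mul_smul, smul_smul, adj_triple, e1, Matrix.mul_smul, Matrix.smul_mul,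
        smul_smul, map_inv₀, ← mul_inv, hw, inv_mul_cancel₀ hs0, one_smul,
        show adj C.σ hi * (adj C.σ h.1 * h.1) * hi = adj C.σ (h.1 * hi) * (h.1 * hi) by
          simp only [adj_mul, Matrix.mul_assoc], h1, adj_one, Matrix.one_mul]
    have hd : M.det ≠ 0 := fun h0 => one_ne_zero (α := F) (by
      rw [← Matrix.det_one (n := Fin n), ← hu, Matrix.det_mul, h0, mul_zero])
    let k : GU := ⟨GeneralLinearGroup.mkOfDetNeZero M hd, (mem_GU_iff' C _).2 hu⟩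
    refine ⟨conjPSU k, ⟨k, rfl⟩, ?_⟩
    rw [conj_psu, mul_left_inj]
    have hZZ : C.σ.mapMatrix Z = Z := σ_map D P
    have hk : mg g' * C.σ.mapMatrix (mg k) = (ν' * C.σ w⁻¹ / (ν * w⁻¹)) • (mg k * mg g) := by
      change mg g' * C.σ.mapMatrix M = _ • (M * mg g)
      rw [hg, hg', hM, show C.σ.mapMatrix (w⁻¹ • (h'.1 * Z * hi)) = C.σ w⁻¹ • C.σ.mapMatrix (h'.1 * Z * hi) from
        Matrix.ext fun i j => map_mul C.σ _ _]
      simp only [Matrix.smul_mul, Matrix.mul_smul, smul_smul]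
      rw [show h'.1 * Z * hi * cob C h = h'.1 * Z * ((hi * h.1) * C.σ.mapMatrix hi) by
          simp only [cob, ← hhi, Matrix.mul_assoc], h2, Matrix.one_mul,
        show cob C h' * C.σ.mapMatrix (h'.1 * Z * hi) = cob C h' * C.σ.mapMatrix h'.1 * C.σ.mapMatrix Z * C.σ.mapMatrix hi by
          simp only [map_mul, Matrix.mul_assoc], cob_mul, hZZ]
      congr 1
      have : C.σ w ≠ 0 := (map_ne_zero C.σ).2 hw0
      field_simp
    have hi2 : mg ((k * g * fieldGU D.σ k⁻¹)⁻¹ * g') = (ν' * C.σ w⁻¹ / (ν * w⁻¹)) • (1 : Matrix (Fin n) (Fin n) F) := by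
      have h3 : mg (g' * fieldGU D.σ k) = (ν' * C.σ w⁻¹ / (ν * w⁻¹)) • mg (k * g) := by
        rw [GU_coe_mul, GU_coe_mul, fieldGU_val, map_σR D]; exact hk
      have h4 : g' = g' * fieldGU D.σ k * fieldGU D.σ k⁻¹ := by rw [map_inv, mul_inv_cancel_right]
      conv_lhs => rw [h4]
      rw [GU_coe_mul, GU_coe_mul _ (fieldGU D.σ k⁻¹), h3, Matrix.smul_mul, Matrix.mul_smul]
      congr 1
      rw [← GU_coe_mul, ← GU_coe_mul, inv_mul_cancel]
      rfl
    have := conjPSU_eq_one_of_scalar hi2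
    rw [map_mul, map_inv, inv_mul_eq_one] at this
    exact this.symm

/-- The setup of involutory graph automorphisms of `PSU_n`. -/
noncomputable def setupPSU (hn : 3 ≤ n) : Setup (MulAut PSU') F₀ n where
  H := (conjPSU (F := F) (n := n) (q := q)).range
  Inv := fun γ => Cfsg.IsGraphAutClassPSU γ ∧ orderOf γ = 2
  Rep := RepPSU D
  rep_det := fun {γ G} h => ⟨h.1, h.2.1⟩
  exists_rep := fun {γ} h => exists_rep_psu D hn h.1 h.2
  exists_inv := fun {G} hG hGs => exists_inv_psu D hn hG hGs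
  centralizer := fun {γ G} h => centralizer_psu D hn h
  conj_iff := fun {γ γ' G G'} h h' => conj_iff_psu D hn h h'

/-- Splitting of a class of involutory graph automorphisms of `PSU_n`. -/
theorem split_psu (hn : 3 ≤ n) {γ : MulAut PSU'} {G₀ : Matrix (Fin n) (Fin n) F₀} (hr : RepPSU D γ G₀)
    (P : Subgroup (N1 F q)) (hpow : (powMonoidHom n : N1 F q →* N1 F q).range ≤ P)
    (hC : ∀ (a : GL (Fin n) F₀) (c : F₀ˣ) (v : F) (z : N1 F q), a.1ᵀ * G₀ * a.1 = (c : F₀) • G₀ →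
      C.σ v * v = D.ι c → (z.1 : F) = v⁻¹ ^ n * D.ι a.1.det → z ∈ P)
    (hP : ∀ z ∈ P, ∃ (a : GL (Fin n) F₀) (c : F₀ˣ) (v : F), v ≠ 0 ∧ a.1ᵀ * G₀ * a.1 = (c : F₀) • G₀ ∧
      C.σ v * v = D.ι c ∧ (z.1 : F) = v⁻¹ ^ n * D.ι a.1.det) :
    Cfsg.splitClassCount (Cfsg.inndiagPSU n F q) (Cfsg.Inn PSU') γ = P.index := by
  obtain ⟨hGd, -, h, ε, ν, g, hε, hν, hH, hg, rfl⟩ := hr
  have hdet : ∀ (x : GU) (A : Matrix (Fin n) (Fin n) F₀) (v : F),
      mg x = v⁻¹ • (h.1 * D.ι.mapMatrix A * (h⁻¹ : GL (Fin n) F).1) →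
      ((detU C n x).1 : F) = v⁻¹ ^ n * D.ι A.det := fun x A v e => by
    change (mg x).det = _
    rw [e, Matrix.det_smul, Fintype.card_fin, Matrix.det_mul_right_comm, ← Units.val_mul, mul_inv_cancel,
      Units.val_one, Matrix.one_mul, ← RingHom.map_det]
  rw [inndiagPSU_eq_range]
  refine split_count conjPSU _ inn_le_range (detU C n) (detU_surjective C (by omega)) P _
    (fun x hx => hpow ((conjPSU_mem_inn_iff C hn x).1 hx))
    (fun x hx => (conjPSU_mem_inn_iff C hn x).2 (by rw [hx]; exact one_mem _)) (fun x hx => ?_) (fun z hz => ?_)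
  · obtain ⟨a, c, v, -, hac, hcv, hxv⟩ := exists_descend_commute D hn hε hν hH hg hx
    exact hC a c v _ hac hcv (hdet x a.1 v hxv)
  · obtain ⟨a, c, v, hv, hac, hcv, hzv⟩ := hP z hz
    obtain ⟨x, hx1, hx2⟩ := exists_lift_commute D hn hH hg a hac hv hcv
    exact ⟨x, hx1, Subtype.ext (Units.ext ((hdet x a.1 v hx2).trans hzv.symm))⟩

end CfsgLib.GraphInv
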