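import Cfsg.Agent.GraphInv.PSU
set_option autoImplicit false

/-!
The three splitting numbers for involutory graph automorphisms of `PSU_n(q)`.
-/

namespace CfsgLib.GraphInv

open Matrix CfsgLib.AutPSU CfsgLib.UGeom

variable {F : Type*} [Field F] [Fintype F] {q n m : ℕ} {F₀ : Type*} [Field F₀] [Fintype F₀]
  {C : Conj F q} (D : Fixed C F₀)

local notation "PSU'" => Cfsg.PSU n F q

theorem N1_norm (C : Conj F q) (u : N1 F q) : C.σ (u.1 : F) * (u.1 : F) = 1 := by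
  rw [C.pow, mul_comm]; exact mem_N1.1 u.2

theorem exists_div (C : Conj F q) (u : N1 F q) (D : Fixed C F₀) :
    ∃ (v : F) (c : F₀ˣ), v ≠ 0 ∧ C.σ v * v = D.ι c ∧ C.σ v = (u.1 : F) * v := by
  classical
  obtain ⟨b, hb⟩ : ∃ b : F, b ≠ 0 ∧ C.σ b = (u.1 : F) * b := by
    -- Hilbert 90
    obtain ⟨z, hz⟩ : ∃ z : F, z + (u.1 : F)⁻¹ * C.σ z ≠ 0 := by
      by_contra hno
      push Not at hno
      have h1 := hno 1
      rw [map_one, mul_one] at h1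
      refine C.ne_id (RingHom.ext fun t => ?_)
      have h2 := hno t
      rw [RingHom.id_apply]
      have hu : ((u.1 : F))⁻¹ ≠ 0 := inv_ne_zero u.1.ne_zero
      exact mul_left_cancel₀ hu (by linear_combination h2 - t * h1)
    refine ⟨z + (u.1 : F)⁻¹ * C.σ z, hz, ?_⟩
    have hσu : C.σ (u.1 : F) = (u.1 : F)⁻¹ := eq_inv_of_mul_eq_one_left (N1_norm C u)
    rw [map_add, map_mul, map_inv₀, hσu, inv_inv, C.invol, mul_add, ← mul_assoc,
      mul_inv_cancel₀ u.1.ne_zero, one_mul, add_comm]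
  obtain ⟨d, hd⟩ := exists_of_fix D (c := C.σ b * b) (by rw [map_mul, C.invol, mul_comm])
  have hd0 : d ≠ 0 := fun h0 => mul_ne_zero ((map_ne_zero C.σ).2 hb.1) hb.1 (by rw [← hd, h0, map_zero])
  exact ⟨b, Units.mk0 d hd0, hb.1, hd.symm, hb.2⟩

/-- The square of the determinant of a commuting element. -/
theorem exists_root_det (hn : 3 ≤ n) {γ : MulAut PSU'} {G₀ : Matrix (Fin n) (Fin n) F₀} (hr : RepPSU D γ G₀)
    {a : GL (Fin n) F₀} {c : F₀ˣ} {v : F} {z : N1 F q} (hac : a.1ᵀ * G₀ * a.1 = (c : F₀) • G₀)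
    (hcv : C.σ v * v = D.ι c) (hz : (z.1 : F) = v⁻¹ ^ n * D.ι a.1.det) : ∃ y : N1 F q, y ^ n = z ^ 2 := by
  have hv : v ≠ 0 := fun h0 => (map_ne_zero D.ι).2 c.ne_zero (by rw [← hcv, h0, mul_zero])
  have hw : (C.σ v / v) * (C.σ v / v) ^ q = 1 := by
    rw [← C.pow, map_div₀, C.invol]
    rw [div_mul_div_comm, mul_comm (C.σ v), div_self (mul_ne_zero hv ((map_ne_zero C.σ).2 hv))]
  let w : N1 F q := ⟨Units.mk0 (C.σ v / v) (div_ne_zero ((map_ne_zero C.σ).2 hv) hv), mem_N1.2 hw⟩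
  refine ⟨w, Subtype.ext (Units.ext ?_)⟩
  simp only [SubgroupClass.coe_pow, Units.val_pow_eq_pow_val]
  change (C.σ v / v) ^ n = (z.1 : F) ^ 2
  rw [hz, mul_pow, ← map_pow D.ι, det_sq_sim hr.1 hac, Fintype.card_fin, map_pow, ← hcv, mul_pow, inv_pow, div_pow]
  field_simp

theorem split_psu_sp (hn : 3 ≤ n) (h2 : (2 : F₀) ≠ 0) (hnm : n = 2 * m) {γ : MulAut PSU'}
    {G₀ : Matrix (Fin n) (Fin n) F₀} (hr : RepPSU D γ G₀) (hs : G₀ᵀ = -G₀) :
    Cfsg.splitClassCount (Cfsg.inndiagPSU n F q) (Cfsg.Inn PSU') γ = Nat.gcd m (q + 1) := by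
  have hJ := (even_normal h2 hnm hr.1).1 hs
  rw [split_psu D hn hr (powMonoidHom m : N1 F q →* N1 F q).range ?_ ?_ ?_, index_powers (card_N1 C)]
  · rintro _ ⟨y, rfl⟩
    exact ⟨y ^ 2, by simp only [powMonoidHom_apply, ← pow_mul]; rw [← hnm]⟩
  · intro a c v z hac hcv hz
    have hv : v ≠ 0 := fun h0 => (map_ne_zero D.ι).2 c.ne_zero (by rw [← hcv, h0, mul_zero])
    have hw : (C.σ v / v) * (C.σ v / v) ^ q = 1 := by
      rw [← C.pow, map_div₀, C.invol]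
      rw [div_mul_div_comm, mul_comm (C.σ v), div_self (mul_ne_zero hv ((map_ne_zero C.σ).2 hv))]
    refine ⟨⟨Units.mk0 (C.σ v / v) (div_ne_zero ((map_ne_zero C.σ).2 hv) hv), mem_N1.2 hw⟩,
      Subtype.ext (Units.ext ?_)⟩
    simp only [powMonoidHom_apply, SubgroupClass.coe_pow, Units.val_pow_eq_pow_val, Units.val_mk0]
    rw [hz, det_sim_of_cong_J hJ hac, map_pow, ← hcv, mul_pow, inv_pow, div_pow, hnm, two_mul, pow_add]
    field_simp
  · rintro _ ⟨y, rfl⟩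
    obtain ⟨v, c, hv, hcv, hσ⟩ := exists_div C y D
    obtain ⟨a, ha, hd⟩ := exists_sim_of_cong_J hJ c
    refine ⟨a, c, v, hv, ha, hcv, ?_⟩
    simp only [powMonoidHom_apply, SubgroupClass.coe_pow, Units.val_pow_eq_pow_val]
    rw [hd, map_pow, ← hcv, hσ, inv_pow, hnm, two_mul, pow_add, mul_pow, mul_pow]
    field_simp

theorem split_psu_orth (hn : 3 ≤ n) (h2 : (2 : F₀) ≠ 0) (hqe : Even (q + 1)) (hnm : n = 2 * m) {γ : MulAut PSU'}
    {G₀ : Matrix (Fin n) (Fin n) F₀} (hr : RepPSU D γ G₀) (hs : G₀ᵀ = G₀) :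
    Cfsg.splitClassCount (Cfsg.inndiagPSU n F q) (Cfsg.Inn PSU') γ = Nat.gcd n (q + 1) / 2 := by
  rw [split_psu D hn hr (sqPow (N1 F q) n) ?_ ?_ ?_, index_sqPow (card_N1 C) ⟨m, by omega⟩ hqe]
  · rintro _ ⟨y, rfl⟩
    exact ⟨y ^ 2, by simp only [powMonoidHom_apply, ← pow_mul, mul_comm]⟩
  · intro a c v z hac hcv hz
    exact mem_sqPow.2 (exists_root_det D hn hr hac hcv hz)
  · intro z hz
    obtain ⟨y, hy⟩ := mem_sqPow.1 hz
    have hy' : (z.1 : F) ^ 2 = ((y.1 : F) ^ m) ^ 2 := by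
      rw [← pow_mul, mul_comm m 2, ← hnm, ← Units.val_pow_eq_pow_val, ← Units.val_pow_eq_pow_val,
        ← SubgroupClass.coe_pow, ← SubgroupClass.coe_pow, hy]
    obtain ⟨s, hs1, hzs⟩ : ∃ s : F₀, (s = 1 ∨ s = -1) ∧ (z.1 : F) = D.ι s * (y.1 : F) ^ m := by
      rcases sq_eq_sq_iff_eq_or_eq_neg.1 hy' with h | h
      · exact ⟨1, Or.inl rfl, by rw [h, map_one, one_mul]⟩
      · exact ⟨-1, Or.inr rfl, by rw [h, map_neg, map_one]; ring⟩
    obtain ⟨v, c, hv, hcv, hσ⟩ := exists_div C y D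
    obtain ⟨a, ha, hd⟩ := exists_sim_sym h2 (by omega : 0 < m) hnm hr.1 hs c hs1
    refine ⟨a, c, v, hv, ha, hcv, ?_⟩
    rw [hd, hzs, map_mul, map_pow, ← hcv, hσ, inv_pow, hnm, two_mul, pow_add, mul_pow, mul_pow]
    field_simp

theorem split_psu_powers (hn : 3 ≤ n) (hodd : Odd n ∨ Odd (q + 1)) {γ : MulAut PSU'}
    {G₀ : Matrix (Fin n) (Fin n) F₀} (hr : RepPSU D γ G₀) :
    Cfsg.splitClassCount (Cfsg.inndiagPSU n F q) (Cfsg.Inn PSU') γ = Nat.gcd n (q + 1) := by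
  rw [split_psu D hn hr (powMonoidHom n : N1 F q →* N1 F q).range le_rfl ?_ ?_, index_powers (card_N1 C)]
  · intro a c v z hac hcv hz
    obtain ⟨y, hy⟩ := exists_root_det D hn hr hac hcv hz
    exact mem_powers_of_odd (card_N1 C) hodd hy.symm
  · rintro _ ⟨y, rfl⟩
    refine ⟨1, 1, (y.1 : F)⁻¹, inv_ne_zero y.1.ne_zero, ?_, ?_, ?_⟩
    · simp
    · rw [map_inv₀, ← mul_inv, N1_norm C y, inv_one]; simp
    · simp

end CfsgLib.GraphInv
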