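import Cfsg.Agent.GraphInv.Det
set_option autoImplicit false

/-!
Classes and centralisers of involutions described by non-singular symmetric or alternating matrices.
-/

namespace CfsgLib.GraphInv

open Matrix

/-- Involutions parametrised by forms up to congruence and scalars. -/
structure Setup (M : Type*) [Group M] (K : Type*) [Field K] (n : ℕ) where
  H : Subgroup M
  Inv : M → Prop
  Rep : M → Matrix (Fin n) (Fin n) K → Prop
  rep_det : ∀ {γ G}, Rep γ G → G.det ≠ 0 ∧ (Gᵀ = G ∨ Gᵀ = -G)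
  exists_rep : ∀ {γ}, Inv γ → ∃ G, Rep γ G
  exists_inv : ∀ {G : Matrix (Fin n) (Fin n) K}, G.det ≠ 0 → (Gᵀ = G ∨ Gᵀ = -G) → ∃ γ, Inv γ ∧ Rep γ G
  centralizer : ∀ {γ G}, Rep γ G →
    Nonempty (↥(H ⊓ Subgroup.centralizer {γ}) ≃* Cfsg.projQuot (Sim G))
  conj_iff : ∀ {γ γ' G G'}, Rep γ G → Rep γ' G' → (Cfsg.IsConjUnder H γ γ' ↔ Cong G G')

variable {K : Type*} [Field K] [Fintype K] {n m : ℕ}

theorem pgo_equiv_of_cong {I : Type} [Fintype I] [DecidableEq I] (h2 : (2 : K) ≠ 0) (Q : QuadraticForm K (I → K))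
    {G : Matrix (Fin n) (Fin n) K} (h : Cong G (gramM ⇑Q)) :
    Nonempty (Cfsg.projQuot (Sim G) ≃* Cfsg.PGO K ⇑Q) := by
  have e := projQuot_equiv h
  rwa [sim_gramM h2] at e

theorem pgsp_equiv_of_cong {G : Matrix (Fin n) (Fin n) K} (h : Cong G (Matrix.J (Fin m) K)) :
    Nonempty (Cfsg.projQuot (Sim G) ≃* Cfsg.PGSp m K) := by
  have e := projQuot_equiv h
  rwa [sim_J] at e

theorem sp_equiv_of_cong_J (h2 : (2 : K) = 0) (hm : 0 < m) {G : Matrix (Fin n) (Fin n) K}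
    (h : Cong G (Matrix.J (Fin m) K)) :
    Nonempty (Cfsg.projQuot (Sim G) ≃* Matrix.symplecticGroup (Fin m) K) := by
  haveI : Nonempty (Fin m ⊕ Fin m) := ⟨Sum.inl ⟨0, hm⟩⟩
  obtain ⟨e⟩ := projQuot_equiv h
  obtain ⟨f⟩ := iso_equiv_projQuot h2 (G := Matrix.J (Fin m) K)
    (fun h0 => det_J_ne_zero (K := K) (m := m) (by rw [h0, Matrix.det_zero]))
  obtain ⟨g⟩ := iso_J_equiv (K := K) (m := m)
  exact ⟨(e.trans f.symm).trans g⟩

theorem evenModel_ne_zero (h2 : (2 : K) = 0) (i₀ : Fin m) : evenModel i₀ K ≠ 0 := fun h0 => by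
  have := congrFun (congrFun h0 (Sum.inl i₀)) (Sum.inr i₀)
  simp [evenModel, firstVec, vecMulVec_apply, Matrix.J, neg_eq_self_two h2] at this

/-- The odd-dimensional classification. -/
theorem odd_normal (hnm : n = 2 * m + 1) {G : Matrix (Fin n) (Fin n) K} (hG : G.det ≠ 0)
    (hGs : Gᵀ = G ∨ Gᵀ = -G) :
    Nonempty (Cfsg.projQuot (Sim G) ≃* Cfsg.PGO K (Cfsg.quadFormOdd m K)) ∧
      ∀ G' : Matrix (Fin n) (Fin n) K, G'.det ≠ 0 → (G'ᵀ = G' ∨ G'ᵀ = -G') → Cong G G' := by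
  classical
  by_cases h2 : (2 : K) = 0
  · have hsym : ∀ A : Matrix (Fin n) (Fin n) K, (Aᵀ = A ∨ Aᵀ = -A) → Aᵀ = A := fun A hA => hA.elim id fun e => by
      rw [e]; ext i j; exact neg_eq_self_two h2 _
    have hnf : ∀ A : Matrix (Fin n) (Fin n) K, A.det ≠ 0 → (Aᵀ = A ∨ Aᵀ = -A) → Cong A (oddModel m K) := by
      intro A hA hAs
      rcases normal_form_two h2 hA (hsym A hAs) with ⟨m', hm', hc⟩ | ⟨m', hm', -⟩
      · obtain rfl : m' = m := by omega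
        exact hc
      · omega
    refine ⟨?_, fun G' hG' hG's => (hnf G hG hGs).trans (hnf G' hG' hG's).symm⟩
    haveI : CharP K 2 := CharTwo.of_one_ne_zero_of_two_eq_zero one_ne_zero h2
    obtain ⟨e⟩ := projQuot_equiv (hnf G hG hGs)
    obtain ⟨f⟩ := iso_equiv_projQuot h2 (G := oddModel m K)
      (fun h0 => det_oddModel_ne_zero (K := K) (m := m) (by rw [h0, Matrix.det_zero]))
    obtain ⟨g⟩ := iso_oddModel_equiv (K := K) (m := m) h2
    obtain ⟨k⟩ := pgo_odd_two (K := K) m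
    exact ⟨((e.trans f.symm).trans g).trans k⟩
  · have hsym : ∀ A : Matrix (Fin n) (Fin n) K, A.det ≠ 0 → (Aᵀ = A ∨ Aᵀ = -A) → Aᵀ = A := fun A hA hAs =>
      hAs.elim id fun e => absurd (by
        have h1 := congrArg Matrix.det e
        rw [Matrix.det_transpose, Matrix.det_neg, Fintype.card_fin, show (-1 : K) ^ n = -1 by
          rw [hnm, pow_succ, pow_mul, neg_one_sq, one_pow, one_mul]] at h1
        exact (mul_eq_zero.1 (show 2 * A.det = 0 by linear_combination h1)).resolve_left h2) hA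
    have hn : Odd n := ⟨m, hnm⟩
    refine ⟨?_, fun G' hG' hG's => (cong_of_odd h2 hn hG' (hsym G' hG' hG's) hG (hsym G hG hGs))⟩
    let e : Fin n ≃ Unit ⊕ (Fin m ⊕ Fin m) := Fintype.equivOfCardEq (by simp [hnm]; omega)
    have hQ : (gramM ⇑(CfsgLib.Forms.quadOdd K m)).det ≠ 0 := by
      rw [gramM_eq]
      exact CfsgLib.Forms.det_gram_ne_zero (CfsgLib.Forms.nondegenerate_quadOdd m h2) _
    have hc : Cong G (gramM ⇑(CfsgLib.Forms.quadOdd K m)) := by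
      refine Cong.trans (cong_of_odd h2 hn ?_ ?_ hG (hsym G hG hGs)) (cong_submatrix _ e).symm
      · rw [Matrix.det_submatrix_equiv_self]; exact hQ
      · rw [Matrix.transpose_submatrix, gramM_transpose]
    have := pgo_equiv_of_cong h2 _ hc
    rwa [CfsgLib.Forms.coe_quadOdd] at this

/-- Normal forms in even dimension and odd characteristic. -/
theorem even_normal (h2 : (2 : K) ≠ 0) (hnm : n = 2 * m) {G : Matrix (Fin n) (Fin n) K} (hG : G.det ≠ 0) :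
    (Gᵀ = -G → Cong G (Matrix.J (Fin m) K)) ∧
      (∀ {I : Type} [Fintype I] [DecidableEq I] {M : Matrix I I K}, Fintype.card I = n → M.det ≠ 0 → Mᵀ = M →
        Gᵀ = G → (IsPlusDet m G ↔ IsPlusDet m M) → Cong G M) := by
  refine ⟨fun h => ?_, fun {I} _ _ {M} hI hM hMt hGt hiff => ?_⟩
  · obtain ⟨m', hm', hc⟩ := exists_cong_J hG (alt_of_skew h2 h)
    obtain rfl : m' = m := by omega
    exact hc
  · let e : Fin n ≃ I := Fintype.equivOfCardEq (by simp [hI])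
    refine Cong.trans (cong_of_isPlusDet_iff h2 (m := m) ?_ ?_ hG hGt ?_) (cong_submatrix _ e).symm
    · rw [Matrix.det_submatrix_equiv_self]; exact hM
    · rw [Matrix.transpose_submatrix, hMt]
    · rw [hiff, IsPlusDet, IsPlusDet, Matrix.det_submatrix_equiv_self]

theorem gramM_plus_facts (m : ℕ) :
    (gramM (Cfsg.quadFormPlus m K)).det ≠ 0 ∧ (gramM (Cfsg.quadFormPlus m K))ᵀ = gramM (Cfsg.quadFormPlus m K) := by
  refine ⟨by rw [det_gramM_plus]; exact pow_ne_zero _ (neg_ne_zero.2 one_ne_zero), ?_⟩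
  rw [← CfsgLib.Forms.coe_quadPlus]
  exact gramM_transpose _

theorem gramM_minus_facts (m : ℕ) {a b : K}
    (hab : ∀ z₁ z₂ : K, z₁ ^ 2 + a * z₁ * z₂ + b * z₂ ^ 2 = 0 → z₁ = 0 ∧ z₂ = 0) :
    (gramM (Cfsg.quadFormMinus m K a b)).det ≠ 0 ∧
      (gramM (Cfsg.quadFormMinus m K a b))ᵀ = gramM (Cfsg.quadFormMinus m K a b) := by
  rw [← CfsgLib.Forms.coe_quadMinus]
  refine ⟨?_, gramM_transpose _⟩
  rw [gramM_eq]
  exact CfsgLib.Forms.det_gram_ne_zero (CfsgLib.Forms.nondegenerate_quadMinus m hab) _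

theorem pgo_plus_of_sym (h2 : (2 : K) ≠ 0) (hnm : n = 2 * m) {G : Matrix (Fin n) (Fin n) K} (hG : G.det ≠ 0)
    (hGt : Gᵀ = G) (hp : IsPlusDet m G) :
    Nonempty (Cfsg.projQuot (Sim G) ≃* Cfsg.PGO K (Cfsg.quadFormPlus m K)) := by
  have hc := (even_normal h2 hnm hG).2 (by simp; omega) (gramM_plus_facts m).1 (gramM_plus_facts m).2 hGt
    (iff_of_true hp (isPlusDet_plus m))
  rw [← CfsgLib.Forms.coe_quadPlus] at hc ⊢
  exact pgo_equiv_of_cong h2 _ hc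

theorem pgo_minus_of_sym (h2 : (2 : K) ≠ 0) (hm : 1 ≤ m) (hnm : n = 2 * m) {G : Matrix (Fin n) (Fin n) K}
    (hG : G.det ≠ 0) (hGt : Gᵀ = G) (hp : ¬ IsPlusDet m G) {a b : K}
    (hab : ∀ z₁ z₂ : K, z₁ ^ 2 + a * z₁ * z₂ + b * z₂ ^ 2 = 0 → z₁ = 0 ∧ z₂ = 0) :
    Nonempty (Cfsg.projQuot (Sim G) ≃* Cfsg.PGO K (Cfsg.quadFormMinus (m - 1) K a b)) := by
  obtain ⟨k, rfl⟩ : ∃ k, m = k + 1 := ⟨m - 1, by omega⟩
  rw [Nat.add_sub_cancel]
  have hc := (even_normal h2 hnm hG).2 (by simp; omega) (gramM_minus_facts k hab).1 (gramM_minus_facts k hab).2 hGt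
    (iff_of_false hp (not_isPlusDet_minus h2 k hab))
  rw [← CfsgLib.Forms.coe_quadMinus] at hc ⊢
  exact pgo_equiv_of_cong h2 _ hc

theorem not_pgsp_of_sym (h2 : (2 : K) ≠ 0) (hm : 2 ≤ m) (hnm : n = 2 * m) {G : Matrix (Fin n) (Fin n) K}
    (hG : G.det ≠ 0) (hGt : Gᵀ = G) : ¬ Nonempty (Cfsg.projQuot (Sim G) ≃* Cfsg.PGSp m K) := by
  rintro ⟨e⟩
  set q := Fintype.card K with hq
  have hq0 : 0 < q := Fintype.card_pos
  have hq2 : Nat.Coprime q 2 := Nat.coprime_two_right.2 (Nat.odd_iff.2 (FiniteField.odd_card_of_char_ne_two fun h => h2 (by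
    haveI := ringChar.of_eq h
    exact CharTwo.two_eq_zero)))
  obtain ⟨k, rfl⟩ : ∃ k, m = k + 1 := ⟨m - 1, by omega⟩
  by_cases hp : IsPlusDet (k + 1) G
  · have hc := (even_normal h2 hnm hG).2 (by simp; omega) (gramM_plus_facts _).1 (gramM_plus_facts _).2 hGt
      (iff_of_true hp (isPlusDet_plus _))
    haveI : Nonempty (Fin (k + 1) ⊕ Fin (k + 1)) := ⟨Sum.inl 0⟩
    obtain ⟨f⟩ := projQuot_equiv hc
    rw [← CfsgLib.Forms.coe_quadPlus] at f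
    refine pgsp_not_equiv h2 hm (Q := CfsgLib.Forms.quadPlus K (k + 1)) ?_
      (c := 2 * (q ^ (k + 1) - 1) * ∏ i ∈ Finset.range k, (q ^ (2 * (i + 1)) - 1)) ?_ ?_ ⟨f.symm.trans e⟩
    · intro h0
      have h1 := (gramM_plus_facts (K := K) (k + 1)).1
      rw [← CfsgLib.Forms.coe_quadPlus, h0] at h1
      exact h1 Matrix.det_zero
    · refine Nat.Coprime.mul_right (Nat.Coprime.mul_right hq2 ?_) (coprime_pow_prod hq0)
      refine Nat.Coprime.coprime_dvd_left (dvd_pow_self q (Nat.succ_ne_zero k)) ?_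
      exact (Nat.coprime_self_sub_right (pow_pos hq0 _)).2 (Nat.coprime_one_right _)
    · rw [CfsgLib.OrthOrder.natCard_isometryGroup _ rfl, CfsgLib.OrthOrder.card_isom_plus, Nat.add_sub_cancel]
      ring
  · obtain ⟨a, b, hab⟩ := exists_aniso (K := K) h2
    have hc := (even_normal h2 hnm hG).2 (by simp; omega) (gramM_minus_facts k hab).1 (gramM_minus_facts k hab).2 hGt
      (iff_of_false hp (not_isPlusDet_minus h2 k hab))
    obtain ⟨f⟩ := projQuot_equiv hc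
    rw [← CfsgLib.Forms.coe_quadMinus] at f
    refine pgsp_not_equiv h2 hm (Q := CfsgLib.Forms.quadMinus K k a b) ?_
      (c := 2 * (q ^ (k + 1) + 1) * ∏ i ∈ Finset.range k, (q ^ (2 * (i + 1)) - 1)) ?_ ?_ ⟨f.symm.trans e⟩
    · intro h0
      have h1 := (gramM_minus_facts k hab).1
      rw [← CfsgLib.Forms.coe_quadMinus, h0] at h1
      haveI : Nonempty ((Fin k ⊕ Fin k) ⊕ Fin 2) := ⟨Sum.inr 0⟩
      exact h1 Matrix.det_zero
    · refine Nat.Coprime.mul_right (Nat.Coprime.mul_right hq2 ?_) (coprime_pow_prod hq0)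
      refine Nat.Coprime.coprime_dvd_left (dvd_pow_self q (Nat.succ_ne_zero k)) ?_
      exact Nat.coprime_self_add_right.2 (Nat.coprime_one_right _)
    · rw [CfsgLib.OrthOrder.natCard_isometryGroup _ rfl, CfsgLib.OrthOrder.card_isom_minus hab, Nat.add_sub_cancel]
      ring

namespace Setup

variable {M : Type*} [Group M] (S : Setup M K n)

theorem not_conj {γ γ' : M} {G G' : Matrix (Fin n) (Fin n) K} (hr : S.Rep γ G) (hr' : S.Rep γ' G')
    (h : ¬ Cong G G') : ¬ Cfsg.IsConjUnder S.H γ γ' := fun hc => h ((S.conj_iff hr hr').1 hc)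

/-- The odd-dimensional case. -/
theorem odd_dim (hnm : n = 2 * m + 1) {γ γ' : M} (h : S.Inv γ) (h' : S.Inv γ') :
    Nonempty (↥(S.H ⊓ Subgroup.centralizer {γ}) ≃* Cfsg.PGO K (Cfsg.quadFormOdd m K)) ∧
      Cfsg.IsConjUnder S.H γ γ' := by
  obtain ⟨G, hr⟩ := S.exists_rep h
  obtain ⟨G', hr'⟩ := S.exists_rep h'
  obtain ⟨hG, hGs⟩ := S.rep_det hr
  obtain ⟨⟨e⟩, hall⟩ := odd_normal hnm hG hGs
  obtain ⟨f⟩ := S.centralizer hr
  exact ⟨⟨f.trans e⟩, (S.conj_iff hr hr').2 (hall G' (S.rep_det hr').1 (S.rep_det hr').2)⟩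

/-- The three classes in even dimension and odd characteristic. -/
theorem even_odd (h2 : (2 : K) ≠ 0) (hm : 2 ≤ m) (hnm : n = 2 * m) :
    ∃ (γ₁ γ₂ γ₃ : M) (a b : K), (∀ z₁ z₂ : K, z₁ ^ 2 + a * z₁ * z₂ + b * z₂ ^ 2 = 0 → z₁ = 0 ∧ z₂ = 0) ∧
      S.Inv γ₁ ∧ S.Inv γ₂ ∧ S.Inv γ₃ ∧
      ¬ Cfsg.IsConjUnder S.H γ₁ γ₂ ∧ ¬ Cfsg.IsConjUnder S.H γ₁ γ₃ ∧ ¬ Cfsg.IsConjUnder S.H γ₂ γ₃ ∧
      (∀ γ, S.Inv γ → Cfsg.IsConjUnder S.H γ₁ γ ∨ Cfsg.IsConjUnder S.H γ₂ γ ∨ Cfsg.IsConjUnder S.H γ₃ γ) ∧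
      Nonempty (↥(S.H ⊓ Subgroup.centralizer {γ₁}) ≃* Cfsg.PGSp m K) ∧
      Nonempty (↥(S.H ⊓ Subgroup.centralizer {γ₂}) ≃* Cfsg.PGO K (Cfsg.quadFormPlus m K)) ∧
      Nonempty (↥(S.H ⊓ Subgroup.centralizer {γ₃}) ≃* Cfsg.PGO K (Cfsg.quadFormMinus (m - 1) K a b)) := by
  classical
  obtain ⟨k, rfl⟩ : ∃ k, m = k + 1 := ⟨m - 1, by omega⟩
  obtain ⟨a, b, hab⟩ := exists_aniso (K := K) h2
  let e₁ : Fin n ≃ Fin (k + 1) ⊕ Fin (k + 1) := Fintype.equivOfCardEq (by simp; omega)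
  let e₃ : Fin n ≃ (Fin k ⊕ Fin k) ⊕ Fin 2 := Fintype.equivOfCardEq (by simp; omega)
  set G₁ := (Matrix.J (Fin (k + 1)) K).submatrix e₁ e₁ with hG₁
  set G₂ := (gramM (Cfsg.quadFormPlus (k + 1) K)).submatrix e₁ e₁ with hG₂
  set G₃ := (gramM (Cfsg.quadFormMinus k K a b)).submatrix e₃ e₃ with hG₃
  have t₁ : G₁ᵀ = -G₁ := by rw [hG₁, Matrix.transpose_submatrix, Matrix.J_transpose]; rfl
  have t₂ : G₂ᵀ = G₂ := by rw [hG₂, Matrix.transpose_submatrix, (gramM_plus_facts _).2]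
  have t₃ : G₃ᵀ = G₃ := by rw [hG₃, Matrix.transpose_submatrix, (gramM_minus_facts k hab).2]
  have d₁ : G₁.det ≠ 0 := by rw [hG₁, Matrix.det_submatrix_equiv_self]; exact det_J_ne_zero
  have d₂ : G₂.det ≠ 0 := by rw [hG₂, Matrix.det_submatrix_equiv_self]; exact (gramM_plus_facts _).1
  have d₃ : G₃.det ≠ 0 := by rw [hG₃, Matrix.det_submatrix_equiv_self]; exact (gramM_minus_facts k hab).1
  have p₂ : IsPlusDet (k + 1) G₂ := by
    rw [IsPlusDet, hG₂, Matrix.det_submatrix_equiv_self]; exact isPlusDet_plus _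
  have p₃ : ¬ IsPlusDet (k + 1) G₃ := by
    rw [IsPlusDet, hG₃, Matrix.det_submatrix_equiv_self]; exact not_isPlusDet_minus h2 k hab
  obtain ⟨γ₁, i₁, r₁⟩ := S.exists_inv d₁ (Or.inr t₁)
  obtain ⟨γ₂, i₂, r₂⟩ := S.exists_inv d₂ (Or.inl t₂)
  obtain ⟨γ₃, i₃, r₃⟩ := S.exists_inv d₃ (Or.inl t₃)
  have hsk : ∀ G : Matrix (Fin n) (Fin n) K, G.det ≠ 0 → Gᵀ = G → ¬ Cong G₁ G := fun G hG hGt hc => by
    have h1 := hc.eq_smul_transpose (u := -1) (by rw [t₁, neg_one_smul])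
    rw [hGt, neg_one_smul] at h1
    haveI : Nonempty (Fin n) := ⟨⟨0, by omega⟩⟩
    refine hG ?_
    rw [show G = 0 from Matrix.ext fun i j => (mul_eq_zero.1 (show 2 * G i j = 0 by
      have := congrFun (congrFun h1 i) j
      simp only [Matrix.neg_apply] at this
      linear_combination this)).resolve_left h2]
    exact Matrix.det_zero
  refine ⟨γ₁, γ₂, γ₃, a, b, hab, i₁, i₂, i₃, S.not_conj r₁ r₂ (hsk _ d₂ t₂), S.not_conj r₁ r₃ (hsk _ d₃ t₃),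
    S.not_conj r₂ r₃ (fun hc => p₃ ((isPlusDet_iff_of_cong (by simp [hnm]) hc).1 p₂)), fun γ hγ => ?_, ?_, ?_, ?_⟩
  · obtain ⟨G, hr⟩ := S.exists_rep hγ
    obtain ⟨hG, hs | hs⟩ := S.rep_det hr
    · by_cases hp : IsPlusDet (k + 1) G
      · exact Or.inr (Or.inl ((S.conj_iff r₂ hr).2
          (cong_of_isPlusDet_iff h2 hG hs d₂ t₂ (iff_of_true hp p₂))))
      · exact Or.inr (Or.inr ((S.conj_iff r₃ hr).2
          (cong_of_isPlusDet_iff h2 hG hs d₃ t₃ (iff_of_false hp p₃))))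
    · exact Or.inl ((S.conj_iff r₁ hr).2 (((even_normal h2 hnm d₁).1 t₁).trans ((even_normal h2 hnm hG).1 hs).symm))
  · obtain ⟨f⟩ := S.centralizer r₁
    obtain ⟨g⟩ := pgsp_equiv_of_cong ((even_normal h2 hnm d₁).1 t₁)
    exact ⟨f.trans g⟩
  · obtain ⟨f⟩ := S.centralizer r₂
    obtain ⟨g⟩ := pgo_plus_of_sym h2 hnm d₂ t₂ p₂
    exact ⟨f.trans g⟩
  · obtain ⟨f⟩ := S.centralizer r₃
    obtain ⟨g⟩ := pgo_minus_of_sym h2 (by omega) hnm d₃ t₃ p₃ hab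
    exact ⟨f.trans g⟩

/-- The two classes in even dimension and characteristic two. -/
theorem even_two (h2 : (2 : K) = 0) (hm : 2 ≤ m) (hnm : n = 2 * m) :
    ∃ (γ₁ γ₃ : M) (t : Matrix.symplecticGroup (Fin m) K),
      Cfsg.IsTransvection (t : Matrix (Fin m ⊕ Fin m) (Fin m ⊕ Fin m) K) ∧ S.Inv γ₁ ∧ S.Inv γ₃ ∧
      ¬ Cfsg.IsConjUnder S.H γ₁ γ₃ ∧
      (∀ γ, S.Inv γ → Cfsg.IsConjUnder S.H γ₁ γ ∨ Cfsg.IsConjUnder S.H γ₃ γ) ∧
      Nonempty (↥(S.H ⊓ Subgroup.centralizer {γ₁}) ≃* Matrix.symplecticGroup (Fin m) K) ∧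
      Nonempty (↥(S.H ⊓ Subgroup.centralizer {γ₃}) ≃*
        Subgroup.centralizer ({t} : Set (Matrix.symplecticGroup (Fin m) K))) := by
  classical
  let i₀ : Fin m := ⟨0, by omega⟩
  obtain ⟨t, ht, ⟨et⟩⟩ := exists_transvection_model (K := K) h2 i₀
  let e : Fin n ≃ Fin m ⊕ Fin m := Fintype.equivOfCardEq (by simp; omega)
  set G₁ := (Matrix.J (Fin m) K).submatrix e e with hG₁
  have t₁ : G₁ᵀ = G₁ := by rw [hG₁, Matrix.transpose_submatrix, J_transpose_two h2]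
  have d₁ : G₁.det ≠ 0 := by rw [hG₁, Matrix.det_submatrix_equiv_self]; exact det_J_ne_zero
  set u := secondVec i₀ K
  have hdE : (evenModel i₀ K).det ≠ 0 := by
    rw [evenModel, ← Matrix.one_mul (vecMulVec _ _), ← J_mul_self_two (m := m) h2, Matrix.mul_assoc,
      Matrix.mul_vecMulVec, ← J_mulVec_secondVec h2 i₀, Matrix.mulVec_mulVec, J_mul_self_two h2, Matrix.one_mulVec,
      J_mulVec_secondVec h2 i₀]
    nth_rewrite 1 [← Matrix.mul_one (Matrix.J (Fin m) K)]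
    rw [← Matrix.mul_add, Matrix.det_mul, Matrix.vecMulVec_eq Unit, Matrix.det_one_add_replicateCol_mul_replicateRow,
      show firstVec i₀ K ⬝ᵥ secondVec i₀ K = 0 by simp [firstVec, secondVec], add_zero, mul_one]
    exact det_J_ne_zero
  set G₃ := (evenModel i₀ K).submatrix e e with hG₃
  have t₃ : G₃ᵀ = G₃ := by
    rw [hG₃, Matrix.transpose_submatrix, evenModel, Matrix.transpose_add, J_transpose_two h2,
      Matrix.transpose_vecMulVec]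
  have d₃ : G₃.det ≠ 0 := by rw [hG₃, Matrix.det_submatrix_equiv_self]; exact hdE
  have a₁ : ∀ x, x ⬝ᵥ (G₁ *ᵥ x) = 0 :=
    Cong.isAlt (cong_submatrix (Matrix.J (Fin m) K) e) fun x => CfsgLib.SpGeom.form_self x
  have a₃ : ¬ ∀ x, x ⬝ᵥ (G₃ *ᵥ x) = 0 := fun hall => by
    have h1 := Cong.isAlt (cong_submatrix (evenModel i₀ K) e).symm hall (Pi.single (Sum.inl i₀) 1)
    simp [evenModel, firstVec, Matrix.J, vecMulVec_apply] at h1
  have hnf : ∀ G : Matrix (Fin n) (Fin n) K, G.det ≠ 0 → Gᵀ = G →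
      ((∀ x, x ⬝ᵥ (G *ᵥ x) = 0) ∧ Cong G (Matrix.J (Fin m) K)) ∨
        (¬ (∀ x, x ⬝ᵥ (G *ᵥ x) = 0)) ∧ Cong G (evenModel i₀ K) := by
    intro G hG hGt
    rcases normal_form_two h2 hG hGt with ⟨m', hm', -⟩ | ⟨m', hm', hcase⟩
    · omega
    · obtain rfl : m' = m := by omega
      exact hcase.imp id fun h => ⟨h.1, h.2 i₀⟩
  have hsym : ∀ A : Matrix (Fin n) (Fin n) K, (Aᵀ = A ∨ Aᵀ = -A) → Aᵀ = A := fun A hA => hA.elim id fun e => by
    rw [e]; ext i j; exact neg_eq_self_two h2 _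
  obtain ⟨γ₁, i₁, r₁⟩ := S.exists_inv d₁ (Or.inl t₁)
  obtain ⟨γ₃, i₃, r₃⟩ := S.exists_inv d₃ (Or.inl t₃)
  refine ⟨γ₁, γ₃, t, ht, i₁, i₃, S.not_conj r₁ r₃ (fun hc => a₃ (Cong.isAlt hc a₁)), fun γ hγ => ?_, ?_, ?_⟩
  · obtain ⟨G, hr⟩ := S.exists_rep hγ
    obtain ⟨hG, hs⟩ := S.rep_det hr
    rcases hnf G hG (hsym G hs) with ⟨-, hc⟩ | ⟨-, hc⟩
    · exact Or.inl ((S.conj_iff r₁ hr).2 ((cong_submatrix _ e).symm.trans hc.symm))
    · exact Or.inr ((S.conj_iff r₃ hr).2 ((cong_submatrix _ e).symm.trans hc.symm))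
  · obtain ⟨f⟩ := S.centralizer r₁
    obtain ⟨g⟩ := sp_equiv_of_cong_J h2 (by omega) (cong_submatrix _ e).symm
    exact ⟨f.trans g⟩
  · obtain ⟨f⟩ := S.centralizer r₃
    obtain ⟨g⟩ := projQuot_equiv (cong_submatrix (evenModel i₀ K) e).symm
    obtain ⟨k⟩ := iso_equiv_projQuot h2 (evenModel_ne_zero h2 i₀)
    exact ⟨((f.trans g).trans k.symm).trans et⟩

end Setup

end CfsgLib.GraphInv
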