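import Cfsg.Prelude.Def_LieTypeDatum
set_option autoImplicit false

/-!
Similitude groups of bilinear forms given by matrices, congruence up to scalars, projective quotients.
-/

namespace CfsgLib.GraphInv

open Matrix

variable {K : Type*} [Field K] {I J L : Type} [Fintype I] [DecidableEq I] [Fintype J] [DecidableEq J]
  [Fintype L] [DecidableEq L]

/-- Congruence up to a non-zero scalar. -/
def Cong (G : Matrix I I K) (G' : Matrix J J K) : Prop :=
  ∃ (P : Matrix I J K) (P' : Matrix J I K), P * P' = 1 ∧ P' * P = 1 ∧ ∃ c : K, c ≠ 0 ∧ Pᵀ * G * P = c • G'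

theorem Cong.refl (G : Matrix I I K) : Cong G G :=
  ⟨1, 1, Matrix.one_mul _, Matrix.one_mul _, 1, one_ne_zero, by simp⟩

theorem Cong.symm {G : Matrix I I K} {G' : Matrix J J K} (h : Cong G G') : Cong G' G := by
  obtain ⟨P, P', h1, h2, c, hc, e⟩ := h
  refine ⟨P', P, h2, h1, c⁻¹, inv_ne_zero hc, ?_⟩
  have e1 : G' = c⁻¹ • (Pᵀ * G * P) := by rw [e, smul_smul, inv_mul_cancel₀ hc, one_smul]
  rw [e1, Matrix.mul_smul, Matrix.smul_mul,
    show P'ᵀ * (Pᵀ * G * P) * P' = (P * P')ᵀ * G * (P * P') by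
      rw [Matrix.transpose_mul]; simp only [Matrix.mul_assoc],
    h1, Matrix.transpose_one, Matrix.one_mul, Matrix.mul_one]

theorem Cong.trans {G : Matrix I I K} {G' : Matrix J J K} {G'' : Matrix L L K} (h : Cong G G')
    (h' : Cong G' G'') : Cong G G'' := by
  obtain ⟨P, P', h1, h2, c, hc, e⟩ := h
  obtain ⟨R, R', h1', h2', c', hc', e'⟩ := h'
  refine ⟨P * R, R' * P', ?_, ?_, c * c', mul_ne_zero hc hc', ?_⟩
  · rw [Matrix.mul_assoc, ← Matrix.mul_assoc R, h1', Matrix.one_mul, h1]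
  · rw [Matrix.mul_assoc, ← Matrix.mul_assoc P', h2, Matrix.one_mul, h2']
  · rw [Matrix.transpose_mul, show Rᵀ * Pᵀ * G * (P * R) = Rᵀ * (Pᵀ * G * P) * R by
      simp only [Matrix.mul_assoc], e, Matrix.mul_smul, Matrix.smul_mul, e', smul_smul]

theorem cong_smul (G : Matrix I I K) {c : K} (hc : c ≠ 0) : Cong G (c • G) :=
  ⟨1, 1, Matrix.one_mul _, Matrix.one_mul _, c⁻¹, inv_ne_zero hc, by simp [smul_smul, inv_mul_cancel₀ hc]⟩

theorem cong_submatrix (G : Matrix I I K) (e : J ≃ I) : Cong G (G.submatrix e e) := by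
  refine ⟨(1 : Matrix I I K).submatrix id e, (1 : Matrix I I K).submatrix e id, ?_, ?_, 1, one_ne_zero, ?_⟩
  · rw [Matrix.submatrix_mul_equiv, Matrix.mul_one, Matrix.submatrix_id_id]
  · rw [← Matrix.submatrix_mul _ _ _ _ _ Function.bijective_id, Matrix.mul_one, Matrix.submatrix_one_equiv]
  · rw [one_smul, Matrix.transpose_submatrix, Matrix.transpose_one, Matrix.mul_assoc]
    nth_rewrite 1 [← Matrix.submatrix_id_id G]
    rw [← Matrix.submatrix_mul _ _ _ _ _ Function.bijective_id, Matrix.mul_one,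
      ← Matrix.submatrix_mul _ _ _ _ _ Function.bijective_id, Matrix.one_mul]

/-- Vectors whose Gram matrix is non-singular give a congruence. -/
theorem cong_of_vectors (G : Matrix I I K) {M : Matrix J J K} (hM : M.det ≠ 0) (hcard : Fintype.card J = Fintype.card I)
    (v : J → I → K) {c : K} (hc : c ≠ 0) (h : ∀ i j, v i ⬝ᵥ (G *ᵥ v j) = c * M i j) : Cong G M := by
  let P : Matrix I J K := Matrix.of fun i j => v j i
  have hP : Pᵀ * G * P = c • M := by
    ext i j
    rw [Matrix.smul_apply, smul_eq_mul, ← h, Matrix.mul_assoc]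
    simp only [Matrix.mul_apply, dotProduct, Matrix.mulVec, Matrix.transpose_apply, P, Matrix.of_apply]
  let P' : Matrix J I K := (c • M)⁻¹ * (Pᵀ * G)
  have h1 : P' * P = 1 := by
    have hd : (c • M).det ≠ 0 := by
      rw [Matrix.det_smul]
      exact mul_ne_zero (pow_ne_zero _ hc) hM
    rw [Matrix.mul_assoc, hP, Matrix.nonsing_inv_mul _ (isUnit_iff_ne_zero.2 hd)]
  exact ⟨P, P', (Matrix.mul_eq_one_comm_of_card_eq (R := K) J I hcard).1 h1, h1, c, hc, hP⟩

/-- The similitudes of a bilinear form. -/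
def Sim (G : Matrix I I K) : Subgroup (GL I K) where
  carrier := {a | ∃ c : Kˣ, (a : Matrix I I K)ᵀ * G * (a : Matrix I I K) = (c : K) • G}
  one_mem' := ⟨1, by simp⟩
  mul_mem' := fun {a b} ha hb => by
    obtain ⟨c, hc⟩ := ha
    obtain ⟨d, hd⟩ := hb
    refine ⟨c * d, ?_⟩
    rw [Units.val_mul, Matrix.transpose_mul, show ∀ A B : Matrix I I K, Bᵀ * Aᵀ * G * (A * B) = Bᵀ * (Aᵀ * G * A) * B
      from fun A B => by simp only [Matrix.mul_assoc], hc, Matrix.mul_smul, Matrix.smul_mul, hd, smul_smul, Units.val_mul]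
  inv_mem' := fun {a} ha => by
    obtain ⟨c, hc⟩ := ha
    refine ⟨c⁻¹, ?_⟩
    set B := ((a⁻¹ : GL I K) : Matrix I I K)
    have e : (a : Matrix I I K) * B = 1 := by rw [← Units.val_mul, mul_inv_cancel, Units.val_one]
    have h1 : G = (c : K)⁻¹ • ((a : Matrix I I K)ᵀ * G * (a : Matrix I I K)) := by
      rw [hc, smul_smul, inv_mul_cancel₀ c.ne_zero, one_smul]
    conv_lhs => rw [h1]
    rw [Matrix.mul_smul, Matrix.smul_mul,
      show Bᵀ * ((a : Matrix I I K)ᵀ * G * (a : Matrix I I K)) * B =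
        ((a : Matrix I I K) * B)ᵀ * G * ((a : Matrix I I K) * B) by
        rw [Matrix.transpose_mul]; simp only [Matrix.mul_assoc], e, Matrix.transpose_one, Matrix.one_mul,
      Matrix.mul_one, Units.val_inv_eq_inv_val]

/-- The isometries of a bilinear form. -/
def Iso (G : Matrix I I K) : Subgroup (GL I K) where
  carrier := {a | (a : Matrix I I K)ᵀ * G * (a : Matrix I I K) = G}
  one_mem' := by simp
  mul_mem' := fun {a b} ha hb => by
    change ((a * b : GL I K) : Matrix I I K)ᵀ * G * ((a * b : GL I K) : Matrix I I K) = G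
    rw [Units.val_mul, Matrix.transpose_mul, show ∀ A B : Matrix I I K, Bᵀ * Aᵀ * G * (A * B) = Bᵀ * (Aᵀ * G * A) * B
      from fun A B => by simp only [Matrix.mul_assoc], show (a : Matrix I I K)ᵀ * G * (a : Matrix I I K) = G from ha]
    exact hb
  inv_mem' := fun {a} ha => by
    set B := ((a⁻¹ : GL I K) : Matrix I I K)
    have e : (a : Matrix I I K) * B = 1 := by rw [← Units.val_mul, mul_inv_cancel, Units.val_one]
    change Bᵀ * G * B = G
    conv_lhs => rw [show G = (a : Matrix I I K)ᵀ * G * (a : Matrix I I K) from Eq.symm ha]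
    rw [show Bᵀ * ((a : Matrix I I K)ᵀ * G * (a : Matrix I I K)) * B =
        ((a : Matrix I I K) * B)ᵀ * G * ((a : Matrix I I K) * B) by
        rw [Matrix.transpose_mul]; simp only [Matrix.mul_assoc], e, Matrix.transpose_one, Matrix.one_mul,
      Matrix.mul_one]

theorem mem_Sim {G : Matrix I I K} {a : GL I K} :
    a ∈ Sim G ↔ ∃ c : Kˣ, (a : Matrix I I K)ᵀ * G * (a : Matrix I I K) = (c : K) • G := Iff.rfl

theorem mem_Iso {G : Matrix I I K} {a : GL I K} :
    a ∈ Iso G ↔ (a : Matrix I I K)ᵀ * G * (a : Matrix I I K) = G := Iff.rfl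

theorem iso_le_sim (G : Matrix I I K) : Iso G ≤ Sim G := fun _ h => ⟨1, by rw [Units.val_one, one_smul]; exact h⟩

/-- The transport of similitudes along a congruence. -/
theorem projQuot_equiv {G : Matrix I I K} {G' : Matrix J J K} (h : Cong G G') :
    Nonempty (Cfsg.projQuot (Sim G) ≃* Cfsg.projQuot (Sim G')) := by
  obtain ⟨P, P', h1, h2, c, hc, e⟩ := h
  let T : GL I K →* GL J K := MonoidHom.toHomUnits
    { toFun := fun a => P' * (a : Matrix I I K) * P
      map_one' := by rw [Units.val_one, Matrix.mul_one, h2]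
      map_mul' := fun a b => by
        rw [Units.val_mul, show P' * (a : Matrix I I K) * P * (P' * (b : Matrix I I K) * P) =
          P' * (a : Matrix I I K) * (P * P') * (b : Matrix I I K) * P by simp only [Matrix.mul_assoc], h1,
          Matrix.mul_one]
        simp only [Matrix.mul_assoc] }
  have hT : ∀ a, ((T a : GL J K) : Matrix J J K) = P' * (a : Matrix I I K) * P := fun a => rfl
  let T' : GL J K →* GL I K := MonoidHom.toHomUnits
    { toFun := fun a => P * (a : Matrix J J K) * P'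
      map_one' := by rw [Units.val_one, Matrix.mul_one, h1]
      map_mul' := fun a b => by
        rw [Units.val_mul, show P * (a : Matrix J J K) * P' * (P * (b : Matrix J J K) * P') =
          P * (a : Matrix J J K) * (P' * P) * (b : Matrix J J K) * P' by simp only [Matrix.mul_assoc], h2,
          Matrix.mul_one]
        simp only [Matrix.mul_assoc] }
  have hT' : ∀ a, ((T' a : GL I K) : Matrix I I K) = P * (a : Matrix J J K) * P' := fun a => rfl
  let E : GL I K ≃* GL J K :=
    { toFun := T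
      invFun := T'
      left_inv := fun a => Units.ext (by
        rw [hT', hT, show P * (P' * (a : Matrix I I K) * P) * P' = (P * P') * (a : Matrix I I K) * (P * P') by
          simp only [Matrix.mul_assoc], h1, Matrix.one_mul, Matrix.mul_one])
      right_inv := fun a => Units.ext (by
        rw [hT, hT', show P' * (P * (a : Matrix J J K) * P') * P = (P' * P) * (a : Matrix J J K) * (P' * P) by
          simp only [Matrix.mul_assoc], h2, Matrix.one_mul, Matrix.mul_one])
      map_mul' := map_mul T }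
  have hG' : G' = c⁻¹ • (Pᵀ * G * P) := by rw [e, smul_smul, inv_mul_cancel₀ hc, one_smul]
  have hfwd : ∀ a ∈ Sim G, E a ∈ Sim G' := by
    rintro a ⟨d, hd⟩
    refine ⟨d, ?_⟩
    change (T a : Matrix J J K)ᵀ * G' * (T a : Matrix J J K) = (d : K) • G'
    rw [hG', hT, Matrix.mul_smul, Matrix.smul_mul, smul_comm, Matrix.transpose_mul, Matrix.transpose_mul]
    congr 1
    rw [show Pᵀ * ((a : Matrix I I K)ᵀ * P'ᵀ) * (Pᵀ * G * P) * (P' * (a : Matrix I I K) * P) =
      Pᵀ * ((a : Matrix I I K)ᵀ * ((P * P')ᵀ * G * (P * P')) * (a : Matrix I I K)) * P by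
        rw [Matrix.transpose_mul]; simp only [Matrix.mul_assoc],
      h1, Matrix.transpose_one, Matrix.one_mul, Matrix.mul_one, hd, Matrix.mul_smul, Matrix.smul_mul]
  have hbwd : ∀ a ∈ Sim G', E.symm a ∈ Sim G := by
    rintro a ⟨d, hd⟩
    refine ⟨d, ?_⟩
    change (T' a : Matrix I I K)ᵀ * G * (T' a : Matrix I I K) = (d : K) • G
    rw [hT', Matrix.transpose_mul, Matrix.transpose_mul,
      show P'ᵀ * ((a : Matrix J J K)ᵀ * Pᵀ) * G * (P * (a : Matrix J J K) * P') =
        P'ᵀ * ((a : Matrix J J K)ᵀ * (Pᵀ * G * P) * (a : Matrix J J K)) * P' by simp only [Matrix.mul_assoc],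
      e, Matrix.mul_smul, Matrix.smul_mul, hd, smul_comm, ← e, Matrix.mul_smul, Matrix.smul_mul]
    congr 1
    rw [show P'ᵀ * (Pᵀ * G * P) * P' = (P * P')ᵀ * G * (P * P') by
      rw [Matrix.transpose_mul]; simp only [Matrix.mul_assoc], h1, Matrix.transpose_one, Matrix.one_mul,
      Matrix.mul_one]
  let e' : Sim G ≃* Sim G' :=
    { toFun := fun a => ⟨E a.1, hfwd a.1 a.2⟩
      invFun := fun a => ⟨E.symm a.1, hbwd a.1 a.2⟩
      left_inv := fun a => Subtype.ext (E.symm_apply_apply a.1)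
      right_inv := fun a => Subtype.ext (E.apply_symm_apply a.1)
      map_mul' := fun a b => Subtype.ext (map_mul E a.1 b.1) }
  refine ⟨QuotientGroup.congr _ _ e' ?_⟩
  ext b
  simp only [Subgroup.mem_map, Subgroup.mem_subgroupOf, Cfsg.Geo.mem_scalars_iff, MonoidHom.coe_coe]
  constructor
  · rintro ⟨a, ⟨t, ht⟩, rfl⟩
    refine ⟨t, ?_⟩
    change P' * (a.1 : Matrix I I K) * P = _
    rw [ht, Matrix.mul_smul, Matrix.mul_one, Matrix.smul_mul, h2]
  · rintro ⟨t, ht⟩
    refine ⟨e'.symm b, ⟨t, ?_⟩, e'.apply_symm_apply b⟩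
    change P * (b.1 : Matrix J J K) * P' = _
    rw [ht, Matrix.mul_smul, Matrix.mul_one, Matrix.smul_mul, h1]

theorem sim_smul (G : Matrix I I K) {c : K} (hc : c ≠ 0) : Sim (c • G) = Sim G := by
  ext a
  simp only [mem_Sim, Matrix.mul_smul, Matrix.smul_mul]
  refine exists_congr fun d => ⟨fun h => smul_right_injective _ hc ?_, fun h => by rw [h, smul_comm]⟩
  simpa only [smul_comm c (d : K)] using h

theorem Cong.det_rel {G G' : Matrix I I K} (h : Cong G G') :
    ∃ c t : K, c ≠ 0 ∧ t ≠ 0 ∧ t ^ 2 * G.det = c ^ Fintype.card I * G'.det := by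
  obtain ⟨P, P', h1, -, c, hc, e⟩ := h
  refine ⟨c, P.det, hc, fun h0 => one_ne_zero (α := K) ?_, ?_⟩
  · rw [← Matrix.det_one (n := I), ← h1, Matrix.det_mul, h0, zero_mul]
  · rw [← Matrix.det_smul, ← e, Matrix.det_mul, Matrix.det_mul, Matrix.det_transpose]; ring

theorem Cong.transpose {G : Matrix I I K} {G' : Matrix J J K} (h : Cong G G') : Cong Gᵀ G'ᵀ := by
  obtain ⟨P, P', h1, h2, c, hc, e⟩ := h
  refine ⟨P, P', h1, h2, c, hc, ?_⟩
  rw [← Matrix.transpose_smul, ← e, Matrix.transpose_mul, Matrix.transpose_mul, Matrix.transpose_transpose,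
    Matrix.mul_assoc]

theorem Cong.eq_smul_transpose {G : Matrix I I K} {G' : Matrix J J K} (h : Cong G G') {u : K}
    (hu : Gᵀ = u • G) : G'ᵀ = u • G' := by
  obtain ⟨P, P', h1, h2, c, hc, e⟩ := h
  refine smul_right_injective _ hc ?_
  change c • G'ᵀ = c • (u • G')
  rw [← Matrix.transpose_smul, smul_comm, ← e, Matrix.transpose_mul, Matrix.transpose_mul,
    Matrix.transpose_transpose, hu, Matrix.smul_mul, Matrix.mul_smul, Matrix.mul_assoc]

theorem Cong.isAlt {G : Matrix I I K} {G' : Matrix J J K} (h : Cong G G')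
    (hG : ∀ x, x ⬝ᵥ (G *ᵥ x) = 0) (y : J → K) : y ⬝ᵥ (G' *ᵥ y) = 0 := by
  obtain ⟨P, P', h1, h2, c, hc, e⟩ := h
  have h3 := hG (P *ᵥ y)
  rw [Matrix.mulVec_mulVec, Matrix.dotProduct_mulVec, ← Matrix.vecMul_transpose, Matrix.vecMul_vecMul,
    ← Matrix.dotProduct_mulVec, ← Matrix.mul_assoc, e, Matrix.smul_mulVec, dotProduct_smul, smul_eq_mul] at h3
  exact (mul_eq_zero.1 h3).resolve_left hc

end CfsgLib.GraphInv
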