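import Cfsg.Agent.GraphInv.Odd
import Cfsg.Agent.SpGeom.Basic
import Cfsg.Agent.OrthOrder.OddTwo
set_option autoImplicit false

/-!
Symmetric matrices over a finite field of characteristic two, their congruence classes and isometry groups.
-/

namespace CfsgLib.GraphInv

open Matrix

variable {K : Type*} [Field K] {n m : ℕ}

theorem neg_eq_self_two (h2 : (2 : K) = 0) (x : K) : -x = x := by linear_combination (-x) * h2

theorem sqrt_inj (h2 : (2 : K) = 0) {x y : K} (h : x * x = y * y) : x = y := by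
  have h3 : (x - y) * (x - y) = 0 := by linear_combination h + (y * y - x * y) * h2
  exact sub_eq_zero.1 (mul_self_eq_zero.1 h3)

theorem J_transpose_two (h2 : (2 : K) = 0) : (Matrix.J (Fin m) K)ᵀ = Matrix.J (Fin m) K := by
  rw [Matrix.J_transpose]
  ext i j
  exact neg_eq_self_two h2 _

/-- The model in odd dimension. -/
def oddModel (m : ℕ) (K : Type*) [Field K] : Matrix (Unit ⊕ (Fin m ⊕ Fin m)) (Unit ⊕ (Fin m ⊕ Fin m)) K :=
  Matrix.fromBlocks 1 0 0 (Matrix.J (Fin m) K)

theorem det_oddModel_ne_zero : (oddModel m K).det ≠ 0 := by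
  rw [oddModel, Matrix.det_fromBlocks_zero₂₁, Matrix.det_one, one_mul]
  exact det_J_ne_zero

/-- The first coordinate vector. -/
def firstVec (i₀ : Fin m) (K : Type*) [Field K] : Fin m ⊕ Fin m → K := Pi.single (Sum.inl i₀) 1

/-- The vector fixed by the isometries of the non-alternating model. -/
def secondVec (i₀ : Fin m) (K : Type*) [Field K] : Fin m ⊕ Fin m → K := Pi.single (Sum.inr i₀) 1

/-- The non-alternating model in even dimension. -/
def evenModel (i₀ : Fin m) (K : Type*) [Field K] : Matrix (Fin m ⊕ Fin m) (Fin m ⊕ Fin m) K :=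
  Matrix.J (Fin m) K + vecMulVec (firstVec i₀ K) (firstVec i₀ K)

theorem J_mulVec_secondVec (h2 : (2 : K) = 0) (i₀ : Fin m) :
    Matrix.J (Fin m) K *ᵥ secondVec i₀ K = firstVec i₀ K := by
  funext i
  rw [secondVec, Matrix.mulVec_single_one, firstVec]
  rcases i with i | i <;> by_cases h : i = i₀ <;> simp [Matrix.col_apply, Matrix.J, h, neg_eq_self_two h2]

theorem J_mul_self_two (h2 : (2 : K) = 0) : Matrix.J (Fin m) K * Matrix.J (Fin m) K = 1 := by
  rw [Matrix.J_squared]
  ext i j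
  exact neg_eq_self_two h2 _

/-- The diagonal of a symmetric matrix in characteristic two is the square of a linear form. -/
theorem exists_diag [Finite K] (h2 : (2 : K) = 0) {I : Type} [Fintype I] [DecidableEq I] {G : Matrix I I K}
    (hG : Gᵀ = G) : ∃ l : I → K, ∀ x : I → K, x ⬝ᵥ (G *ᵥ x) = (l ⬝ᵥ x) * (l ⬝ᵥ x) := by
  choose l hl using fun i => CfsgLib.Forms.exists_sq h2 (G i i)
  refine ⟨l, fun x => ?_⟩
  let f : (I → K) →+ K := AddMonoidHom.mk' (fun x => x ⬝ᵥ (G *ᵥ x)) fun x y => by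
    rw [Matrix.mulVec_add, add_dotProduct, dotProduct_add, dotProduct_add, dot_transpose G y x, hG]
    linear_combination (x ⬝ᵥ (G *ᵥ y)) * h2
  let g : (I → K) →+ K := AddMonoidHom.mk' (fun x => (l ⬝ᵥ x) * (l ⬝ᵥ x)) fun x y => by
    rw [dotProduct_add]
    linear_combination (l ⬝ᵥ x) * (l ⬝ᵥ y) * h2
  have h : f = g := AddMonoidHom.functions_ext _ _ _ fun i a => by
    change (Pi.single i a : I → K) ⬝ᵥ (G *ᵥ Pi.single i a) = (l ⬝ᵥ Pi.single i a) * (l ⬝ᵥ Pi.single i a)
    simp only [single_dotProduct, dotProduct_single, Matrix.mulVec, MulOpposite.smul_eq_mul_unop]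
    linear_combination (-(a * a)) * hl i
  exact DFunLike.congr_fun h x

/-- Normal forms of symmetric matrices in characteristic two. -/
theorem normal_form_two [Finite K] (h2 : (2 : K) = 0) {G : Matrix (Fin n) (Fin n) K} (hG : G.det ≠ 0)
    (hGt : Gᵀ = G) :
    (∃ m, n = 2 * m + 1 ∧ Cong G (oddModel m K)) ∨
      ∃ m, n = 2 * m ∧ ((∀ x, x ⬝ᵥ (G *ᵥ x) = 0) ∧ Cong G (Matrix.J (Fin m) K) ∨
        (¬ (∀ x, x ⬝ᵥ (G *ᵥ x) = 0)) ∧ ∀ i₀ : Fin m, Cong G (evenModel i₀ K)) := by
  classical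
  obtain ⟨l, hl⟩ := exists_diag h2 hGt
  set G₁ := G + vecMulVec l l with hG₁
  have hG₁x : ∀ x, G₁ *ᵥ x = G *ᵥ x + (l ⬝ᵥ x) • l := fun x => by
    rw [hG₁, Matrix.add_mulVec, Matrix.vecMulVec_mulVec, op_smul_eq_smul]
  set B : LinearMap.BilinForm K (Fin n → K) := Matrix.toBilin' G₁ with hB
  have hBapp : ∀ x y, B x y = x ⬝ᵥ (G *ᵥ y) + (l ⬝ᵥ x) * (l ⬝ᵥ y) := fun x y => by
    rw [hB, Matrix.toBilin'_apply', hG₁x, dotProduct_add, dotProduct_smul, smul_eq_mul, dotProduct_comm x l]; ring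
  have hA : B.IsAlt := fun x => by
    rw [hBapp, hl]; linear_combination (l ⬝ᵥ x) * (l ⬝ᵥ x) * h2
  have hBsym : ∀ x y, B x y = B y x := fun x y => by
    rw [hBapp, hBapp, dot_transpose G y x, hGt]; ring
  obtain ⟨m, k, b, hef, hee, hff, hrad⟩ := Cfsg.Agent.S0752.result B hA
  have hu : IsUnit G.det := isUnit_iff_ne_zero.2 hG
  set v₀ := G⁻¹ *ᵥ l with hv₀
  have hGv₀ : G *ᵥ v₀ = l := by rw [hv₀, Matrix.mulVec_mulVec, Matrix.mul_nonsing_inv _ hu, Matrix.one_mulVec]
  have hr : ∀ j : Fin k, b (Sum.inr j) = (l ⬝ᵥ b (Sum.inr j)) • v₀ := fun j => by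
    have h1 : G₁ *ᵥ b (Sum.inr j) = 0 := dotProduct_eq_zero _ fun y => by
      rw [dotProduct_comm, ← Matrix.toBilin'_apply', ← hB, hBsym]
      exact hrad j y
    rw [hG₁x] at h1
    have h3 : G *ᵥ b (Sum.inr j) = (l ⬝ᵥ b (Sum.inr j)) • l := by
      funext i
      have h4 := congrFun h1 i
      simp only [Pi.add_apply, Pi.smul_apply, smul_eq_mul, Pi.zero_apply] at h4 ⊢
      linear_combination h4 - (l ⬝ᵥ b (Sum.inr j)) * l i * h2
    have h5 := congrArg (G⁻¹ *ᵥ ·) h3
    simpa only [Matrix.mulVec_mulVec, Matrix.nonsing_inv_mul _ hu, Matrix.one_mulVec, Matrix.mulVec_smul, ← hv₀]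
      using h5
  have hk : k ≤ 1 := by
    by_contra hk
    let j₀ : Fin k := ⟨0, by omega⟩
    let j₁ : Fin k := ⟨1, by omega⟩
    have hne : j₀ ≠ j₁ := fun e => by simpa [j₀, j₁] using congrArg Fin.val e
    have hli : LinearIndependent K ![b (Sum.inr j₀), b (Sum.inr j₁)] := by
      have := b.linearIndependent.comp ![Sum.inr j₀, Sum.inr j₁] (by
        intro x y e
        fin_cases x <;> fin_cases y <;> first | rfl | simp [hne, hne.symm] at e)
      have e : ![b (Sum.inr j₀), b (Sum.inr j₁)] = ⇑b ∘ ![Sum.inr j₀, Sum.inr j₁] :=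
        funext fun x => by fin_cases x <;> rfl
      rw [e]
      exact this
    rw [LinearIndependent.pair_iff] at hli
    have h1 := hli (l ⬝ᵥ b (Sum.inr j₁)) (-(l ⬝ᵥ b (Sum.inr j₀))) (by
      conv_lhs => arg 1; rw [hr j₀]
      conv_lhs => arg 2; rw [hr j₁]
      rw [smul_smul, smul_smul, ← add_smul]
      rw [show (l ⬝ᵥ b (Sum.inr j₁)) * (l ⬝ᵥ b (Sum.inr j₀)) + -(l ⬝ᵥ b (Sum.inr j₀)) * (l ⬝ᵥ b (Sum.inr j₁)) = 0
        by ring, zero_smul])
    exact b.ne_zero (Sum.inr j₁) (by rw [hr j₁, h1.1, zero_smul])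
  have hcard : n = m + m + k := by
    have h1 := Module.finrank_eq_card_basis b
    rw [Module.finrank_fin_fun] at h1
    simpa using h1
  have hBJ : ∀ i j : Fin m ⊕ Fin m, B (b (Sum.inl i)) (b (Sum.inl j)) = Matrix.J (Fin m) K i j := by
    have hfe : ∀ i j : Fin m, B (b (Sum.inl (Sum.inr i))) (b (Sum.inl (Sum.inl j))) = if i = j then 1 else 0 :=
      fun i j => by rw [hBsym, hef]; simp only [eq_comm]
    intro i j
    rcases i with i | i <;> rcases j with j | j
    · simp [Matrix.J, hee]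
    · by_cases h : i = j <;> simp [Matrix.J, hef, h, neg_eq_self_two h2]
    · simp [Matrix.J, hfe, Matrix.one_apply]
    · simp [Matrix.J, hff]
  rcases (show k = 0 ∨ k = 1 by omega) with rfl | rfl
  · refine Or.inr ⟨m, by omega, ?_⟩
    set L : Fin m ⊕ Fin m → K := fun i => l ⬝ᵥ b (Sum.inl i) with hL
    have hdot : ∀ i j : Fin m ⊕ Fin m, b (Sum.inl i) ⬝ᵥ (G *ᵥ b (Sum.inl j)) =
        1 * (Matrix.J (Fin m) K + vecMulVec L L) i j := fun i j => by
      rw [Matrix.add_apply, ← hBJ, vecMulVec_apply, hBapp, one_mul]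
      linear_combination (-(L i * L j)) * h2
    have hcardJ : Fintype.card (Fin m ⊕ Fin m) = Fintype.card (Fin n) := by simp; omega
    by_cases halt : ∀ x, x ⬝ᵥ (G *ᵥ x) = 0
    · refine Or.inl ⟨halt, cong_of_vectors G det_J_ne_zero hcardJ (fun i => b (Sum.inl i)) one_ne_zero fun i j => ?_⟩
      have hl0 : ∀ x, l ⬝ᵥ x = 0 := fun x => mul_self_eq_zero.1 ((hl x).symm.trans (halt x))
      rw [← hBJ, hBapp, hl0, one_mul, zero_mul, add_zero]
    · refine Or.inr ⟨halt, fun i₀ => ?_⟩
      have hL0 : L ≠ 0 := fun h0 => halt fun x => by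
        rw [hl]
        have : l ⬝ᵥ x = 0 := by
          rw [← b.sum_repr x, dotProduct_sum]
          refine Finset.sum_eq_zero fun i _ => ?_
          rcases i with i | i
          · rw [dotProduct_smul, show l ⬝ᵥ b (Sum.inl i) = 0 from congrFun h0 i, smul_zero]
          · exact i.elim0
        rw [this, zero_mul]
      obtain ⟨A, hA⟩ := CfsgLib.SpGeom.exists_mulVec_eq hL0
        (show firstVec i₀ K ≠ 0 from Pi.single_ne_zero_iff.2 one_ne_zero)
      set A' : Matrix (Fin m ⊕ Fin m) (Fin m ⊕ Fin m) K := A.1 with hA'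
      have hmem : A' * Matrix.J (Fin m) K * A'ᵀ = Matrix.J (Fin m) K := SymplecticGroup.mem_iff.1 A.2
      have key : evenModel i₀ K = A' * (Matrix.J (Fin m) K + vecMulVec L L) * A'ᵀ := by
        rw [Matrix.mul_add, Matrix.add_mul, hmem, Matrix.mul_vecMulVec, Matrix.vecMulVec_mul,
          Matrix.vecMul_transpose, hA]
        rfl
      let w : Fin m ⊕ Fin m → Fin n → K := fun i => ∑ k, A' i k • b (Sum.inl k)
      refine cong_of_vectors G ?_ hcardJ w one_ne_zero fun i j => ?_
      · rw [key]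
        have hd : (Matrix.J (Fin m) K + vecMulVec L L).det ≠ 0 := by
          intro h0
          obtain ⟨v, hv, hv0⟩ := Matrix.exists_mulVec_eq_zero_iff.2 h0
          have hz : G *ᵥ (∑ k, v k • b (Sum.inl k)) = 0 := dotProduct_eq_zero _ fun y => by
            rw [dotProduct_comm, ← b.sum_repr y, sum_dotProduct]
            refine Finset.sum_eq_zero fun i _ => ?_
            rcases i with i | i
            · rw [smul_dotProduct, Matrix.mulVec_sum, dotProduct_sum]
              have hi := congrFun hv0 i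
              simp only [Matrix.mulVec, dotProduct, Pi.zero_apply] at hi
              have hs : ∑ j, b (Sum.inl i) ⬝ᵥ (G *ᵥ (v j • b (Sum.inl j))) = 0 := by
                rw [← hi]
                refine Finset.sum_congr rfl fun j _ => ?_
                rw [Matrix.mulVec_smul, dotProduct_smul, smul_eq_mul, hdot, one_mul, mul_comm]
              rw [hs, smul_zero]
            · exact i.elim0
          have hzero := Matrix.eq_zero_of_mulVec_eq_zero hG hz
          exact hv (funext fun i => by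
            have := Fintype.linearIndependent_iff.1 (b.linearIndependent.comp Sum.inl Sum.inl_injective) v hzero i
            exact this)
        rw [Matrix.det_mul, Matrix.det_mul, Matrix.det_transpose]
        have hdA : A'.det ≠ 0 := by rw [hA', SymplecticGroup.det_eq_one A.2]; exact one_ne_zero
        exact mul_ne_zero (mul_ne_zero hdA hd) hdA
      · rw [one_mul, key]
        simp only [w, Matrix.mulVec_sum, Matrix.mulVec_smul, dotProduct_sum, sum_dotProduct, smul_dotProduct,
          dotProduct_smul, hdot, one_mul, smul_eq_mul, Matrix.mul_apply, Matrix.transpose_apply, Finset.sum_mul]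
        refine Finset.sum_congr rfl fun x _ => ?_
        rw [Finset.mul_sum]
        exact Finset.sum_congr rfl fun y _ => by ring
  · refine Or.inl ⟨m, by omega, ?_⟩
    set r := b (Sum.inr (0 : Fin 1)) with hr0
    have hlr : l ⬝ᵥ r ≠ 0 := fun h0 => b.ne_zero (Sum.inr (0 : Fin 1)) (by rw [hr 0, ← hr0, h0, zero_smul])
    have hlv : l ⬝ᵥ v₀ = 1 := by
      refine mul_left_cancel₀ hlr ?_
      rw [mul_one, ← smul_eq_mul, ← dotProduct_smul, ← hr 0]
    have hBv₀ : ∀ y, B v₀ y = 0 := fun y => by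
      rw [hBapp, hlv, one_mul, dot_transpose G v₀ y, hGt, hGv₀, dotProduct_comm y l]
      linear_combination (l ⬝ᵥ y) * h2
    let w : Unit ⊕ (Fin m ⊕ Fin m) → Fin n → K :=
      Sum.elim (fun _ => v₀) fun i => b (Sum.inl i) + (l ⬝ᵥ b (Sum.inl i)) • v₀
    have hlw : ∀ i, l ⬝ᵥ w (Sum.inr i) = 0 := fun i => by
      simp only [w, Sum.elim_inr, dotProduct_add, dotProduct_smul, hlv, smul_eq_mul, mul_one]
      linear_combination (l ⬝ᵥ b (Sum.inl i)) * h2
    refine cong_of_vectors G det_oddModel_ne_zero (by simp; omega) w one_ne_zero fun i j => ?_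
    rw [one_mul]
    rcases i with i | i <;> rcases j with j | j
    · simp only [w, Sum.elim_inl, oddModel, Matrix.fromBlocks_apply₁₁, hGv₀]
      rw [dotProduct_comm, hlv]; simp
    · rw [show w (Sum.inl i) = v₀ from rfl, dot_transpose G, hGt, hGv₀, dotProduct_comm, hlw]
      simp [oddModel]
    · rw [show w (Sum.inl j) = v₀ from rfl, hGv₀, dotProduct_comm, hlw]
      simp [oddModel]
    · rw [oddModel, Matrix.fromBlocks_apply₂₂, ← hBJ]
      have h1 : w (Sum.inr i) ⬝ᵥ (G *ᵥ w (Sum.inr j)) = B (w (Sum.inr i)) (w (Sum.inr j)) := by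
        rw [hBapp, hlw, zero_mul, add_zero]
      rw [h1]
      simp only [w, Sum.elim_inr, map_add, map_smul, LinearMap.add_apply, LinearMap.smul_apply, hBv₀, hBsym _ v₀,
        smul_eq_mul, mul_zero, add_zero]

end CfsgLib.GraphInv
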